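import Cfsg.Agent.Lib.Golay.Orbit
import Cfsg.Agent.Lib.Golay.SimpleGroups
import Cfsg.Agent.Lib.Classical.F4
import Cfsg.Agent.Lib.Classical.Transvection
import Cfsg.Agent.Lib.Classical.Basic
import Cfsg.Agent.Lib.Classical.RingCongr

/-!
# The three-point stabiliser in `M24` is `PSL₃(4)`

The 21 remaining points are labelled by the points of the projective plane over the field with 4
elements so that the elementary transvections act by elements of `M24`; the count of orders closes
the argument.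
-/

set_option autoImplicit false
set_option linter.unusedSectionVars false

namespace Cfsg.Agent.Lib.M24.M21PSL

open Cfsg Cfsg.Agent.Lib.Golay Cfsg.Agent.Lib.Compute Cfsg.Agent.Lib.Classical
open Cfsg.Agent.Lib.Classical.FF4
open Matrix
open scoped Matrix

/-- Coded elements of the field. -/
def f4Of : ℕ → F4
  | 0 => ⟨0, 0⟩
  | 1 => ⟨1, 0⟩
  | 2 => ⟨0, 1⟩
  | _ => ⟨1, 1⟩

/-- The code of a field element. -/
def val4 (z : F4) : ℕ := z.re.val + 2 * z.im.val

/-- The labels of the 24 points. -/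
def labL : List (ℕ × ℕ × ℕ) :=
  [(0,0,0),(0,0,0),(0,0,1),(0,1,0),(1,0,0),(0,1,1),(1,2,1),(1,2,2),(1,1,1),(1,3,2),(1,3,1),(1,1,0),
   (1,1,3),(1,0,1),(0,1,2),(1,3,3),(1,0,2),(0,1,3),(1,1,2),(1,2,0),(1,3,0),(1,2,3),(1,0,3),(0,0,0)]

/-- The point with a given coded vector. -/
def prT : List ℕ :=
  [0, 4, 4, 4, 3, 11, 20, 19, 3, 19, 11, 20, 3, 20, 19, 11, 2, 13, 22, 16, 5, 8, 15, 7, 17, 6, 12, 9,
   14, 10, 21, 18, 2, 16, 13, 22, 14, 18, 10, 21, 5, 7, 8, 15, 17, 9, 6, 12, 2, 22, 16, 13, 17, 12,
   9, 6, 14, 21, 18, 10, 5, 15, 7, 8]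

/-- The three points off the plane. -/
def isF (n : ℕ) : Bool := n == 0 || n == 1 || n == 23

/-- The vector of a point. -/
def rep (a : GolayPt) : Fin 3 → F4 :=
  let l := labL.getD (idx a) (0, 0, 0)
  ![f4Of l.1, f4Of l.2.1, f4Of l.2.2]

/-- The point of a vector. -/
def pr (v : Fin 3 → F4) : GolayPt :=
  pt (prT.getD (val4 (v 0) + 4 * val4 (v 1) + 16 * val4 (v 2)) 0)

theorem rep_spec : ∀ a : GolayPt, isF (idx a) = false → rep a ≠ 0 ∧ pr (rep a) = a := by
  decide +kernel

theorem pr_spec0 : ∀ x y z : F4, (![x, y, z] : Fin 3 → F4) ≠ 0 →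
    isF (idx (pr ![x, y, z])) = false ∧ ∃ c : F4, c ≠ 0 ∧ ![x, y, z] = c • rep (pr ![x, y, z]) := by
  decide +kernel

theorem pr_smul0 : ∀ x y z c : F4, (![x, y, z] : Fin 3 → F4) ≠ 0 → c ≠ 0 →
    pr (c • ![x, y, z]) = pr ![x, y, z] := by
  decide +kernel

theorem vec_eta (v : Fin 3 → F4) : v = ![v 0, v 1, v 2] := by
  funext i
  fin_cases i <;> rfl

theorem pr_spec {v : Fin 3 → F4} (hv : v ≠ 0) :
    isF (idx (pr v)) = false ∧ ∃ c : F4, c ≠ 0 ∧ v = c • rep (pr v) := by
  rw [vec_eta v] at hv ⊢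
  exact pr_spec0 _ _ _ hv

theorem pr_smul {v : Fin 3 → F4} (hv : v ≠ 0) {c : F4} (hc : c ≠ 0) : pr (c • v) = pr v := by
  rw [vec_eta v] at hv ⊢
  exact pr_smul0 _ _ _ _ hv hc

abbrev SL3 := Matrix.SpecialLinearGroup (Fin 3) F4

theorem mulVec_ne_zero (g : SL3) {v : Fin 3 → F4} (hv : v ≠ 0) : g.1 *ᵥ v ≠ 0 := by
  intro h
  apply hv
  have h1 : (g⁻¹).1 *ᵥ (g.1 *ᵥ v) = v := by
    rw [Matrix.mulVec_mulVec, ← Matrix.SpecialLinearGroup.coe_mul]
    simp
  rw [← h1, h, Matrix.mulVec_zero]

/-- The action on the points. -/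
def act (g : SL3) (a : GolayPt) : GolayPt :=
  if isF (idx a) = true then a else pr (g.1 *ᵥ rep a)

theorem act_one (a : GolayPt) : act 1 a = a := by
  unfold act
  split_ifs with h
  · rfl
  · have h' : isF (idx a) = false := by simpa using h
    simp [(rep_spec a h').2]

theorem act_mul (g h : SL3) (a : GolayPt) : act (g * h) a = act g (act h a) := by
  unfold act
  by_cases ha : isF (idx a) = true
  · simp [ha]
  · have ha' : isF (idx a) = false := by simpa using ha
    have hr := (rep_spec a ha').1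
    have hv := mulVec_ne_zero h hr
    obtain ⟨h1, c, hc, h2⟩ := pr_spec hv
    have h3 : g.1 *ᵥ rep (pr (h.1 *ᵥ rep a)) ≠ 0 :=
      mulVec_ne_zero g (rep_spec _ h1).1
    rw [if_neg ha, if_neg ha, h1]
    simp only [Bool.false_eq_true, if_false]
    rw [Matrix.SpecialLinearGroup.coe_mul, ← Matrix.mulVec_mulVec]
    conv_lhs => rw [h2]
    rw [Matrix.mulVec_smul, pr_smul h3 hc]

/-- The action as a permutation. -/
def tauE (g : SL3) : Equiv.Perm GolayPt where
  toFun := act g
  invFun := act g⁻¹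
  left_inv a := by rw [← act_mul]; simp [act_one]
  right_inv a := by rw [← act_mul]; simp [act_one]

/-- The action as a homomorphism. -/
def tau : SL3 →* Equiv.Perm GolayPt :=
  MonoidHom.mk' tauE (fun g h => Equiv.ext fun a => act_mul g h a)

theorem tau_apply (g : SL3) (a : GolayPt) : tau g a = act g a := rfl

/-- The transvection on a vector. -/
def tvAct (i j : Fin 3) (c : F4) (v : Fin 3 → F4) : Fin 3 → F4 :=
  Function.update v i (v i + c * v j)

theorem transvection_mulVec {i j : Fin 3} (hij : i ≠ j) (c : F4) (v : Fin 3 → F4) :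
    (Matrix.SpecialLinearGroup.transvection hij c).1 *ᵥ v = tvAct i j c v := by
  funext k
  rw [Matrix.SpecialLinearGroup.transvection_coe]
  unfold tvAct
  rw [Matrix.add_mulVec, Matrix.one_mulVec, Pi.add_apply]
  by_cases hk : k = i
  · subst hk
    simp [Matrix.mulVec, dotProduct, Matrix.single]
  · have hk' : i ≠ k := Ne.symm hk
    simp [Matrix.mulVec, dotProduct, Matrix.single, hk, hk']

/-- The code of a transvection. -/
def tvCode (i j : Fin 3) (c : F4) (n : ℕ) : ℕ :=
  if isF n = true then n else idx (pr (tvAct i j c (rep (pt n))))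

theorem tvCode_check : ∀ i j : Fin 3, i ≠ j → ∀ c : F4, checkM24 (tvCode i j c) = true := by
  decide +kernel

theorem tau_transvection_mem {i j : Fin 3} (hij : i ≠ j) (c : F4) :
    tau (Matrix.SpecialLinearGroup.transvection hij c) ∈ M24 := by
  refine mem_M24_of_check (f := tvCode i j c) ?_ (tvCode_check i j hij c)
  intro a
  rw [tau_apply, act]
  simp only [enc_idx, tvCode, pt_idx, transvection_mulVec]
  split_ifs <;> rfl

theorem tau_mem (g : SL3) : tau g ∈ M24 := by
  have h := closure_transvections (ι := Fin 3) (F := F4)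
  have hg : g ∈ Subgroup.closure {g : SL3 | ∃ (i j : Fin 3) (hij : i ≠ j) (a : F4),
      g = Matrix.SpecialLinearGroup.transvection hij a} := by rw [h]; trivial
  have := (Subgroup.closure_le ((M24 : Subgroup (Equiv.Perm GolayPt)).comap tau)).2 ?_ hg
  · exact this
  · rintro _ ⟨i, j, hij, a, rfl⟩
    exact tau_transvection_mem hij a

/-- The action into the group of the code. -/
def tauM : SL3 →* M24 := tau.codRestrict M24 tau_mem

theorem tauM_apply (g : SL3) (a : GolayPt) : (tauM g : Equiv.Perm GolayPt) a = act g a := rfl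

theorem tau_ker : tauM.ker = Subgroup.center SL3 := by
  ext g
  rw [MonoidHom.mem_ker, Matrix.SpecialLinearGroup.mem_center_iff]
  constructor
  · intro h
    have hfix : ∀ a, isF (idx a) = false → pr (g.1 *ᵥ rep a) = a := by
      intro a ha
      have h1 : (tauM g : Equiv.Perm GolayPt) a = a := by rw [h]; rfl
      rw [tauM_apply, act, if_neg (by simp [ha])] at h1
      exact h1
    have hsc : ∀ a, isF (idx a) = false → ∃ c : F4, c ≠ 0 ∧ g.1 *ᵥ rep a = c • rep a := by
      intro a ha
      have h1 := pr_spec (mulVec_ne_zero g (rep_spec a ha).1)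
      rw [hfix a ha] at h1
      exact h1.2
    obtain ⟨c0, _, h0⟩ := hsc (pt 4) (by decide +kernel)
    obtain ⟨c1, _, h1⟩ := hsc (pt 3) (by decide +kernel)
    obtain ⟨c2, _, h2⟩ := hsc (pt 2) (by decide +kernel)
    obtain ⟨c3, _, h3⟩ := hsc (pt 8) (by decide +kernel)
    have r0 : rep (pt 4) = ![1, 0, 0] := by decide +kernel
    have r1 : rep (pt 3) = ![0, 1, 0] := by decide +kernel
    have r2 : rep (pt 2) = ![0, 0, 1] := by decide +kernel
    have r3 : rep (pt 8) = ![1, 1, 1] := by decide +kernel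
    rw [r0] at h0
    rw [r1] at h1
    rw [r2] at h2
    rw [r3] at h3
    have e0 := fun k => congrFun h0 k
    have e1 := fun k => congrFun h1 k
    have e2 := fun k => congrFun h2 k
    have e3 := fun k => congrFun h3 k
    simp only [Matrix.mulVec, dotProduct, Fin.sum_univ_three, Pi.smul_apply] at e0 e1 e2 e3
    have a00 := e0 0
    have a10 := e0 1
    have a20 := e0 2
    have a01 := e1 0
    have a11 := e1 1
    have a21 := e1 2
    have a02 := e2 0
    have a12 := e2 1
    have a22 := e2 2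
    have b0 := e3 0
    have b1 := e3 1
    have b2 := e3 2
    simp at a00 a10 a20 a01 a11 a21 a02 a12 a22 b0 b1 b2
    rw [a01, a02, a00] at b0
    rw [a10, a12, a11] at b1
    rw [a20, a21, a22] at b2
    simp at b0 b1 b2
    have a00' := a00.trans b0
    have a11' := a11.trans b1
    have a22' := a22.trans b2
    have hmat : g.1 = Matrix.scalar (Fin 3) c3 := by
      refine Matrix.ext fun i j => ?_
      fin_cases i <;> fin_cases j <;> simp [a00', a11', a22', a01, a02, a10, a12, a20, a21]
    refine ⟨c3, ?_, hmat.symm⟩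
    have hd := g.2
    rw [hmat] at hd
    simpa using hd
  · rintro ⟨r, hr, hg⟩
    have hr0 : r ≠ 0 := by
      rintro rfl
      simp at hr
    apply Subtype.ext
    refine Equiv.ext fun a => ?_
    show act g a = a
    unfold act
    split_ifs with ha
    · rfl
    · have ha' : isF (idx a) = false := by simpa using ha
      have h1 : g.1 *ᵥ rep a = r • rep a := by
        rw [← hg]
        funext k
        simp [Matrix.mulVec, dotProduct, Matrix.scalar_apply, Matrix.diagonal_apply]
      rw [h1, pr_smul (rep_spec a ha').1 hr0, (rep_spec a ha').2]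

/-- Order of the simple group. -/
theorem card_PSL : Nat.card (Matrix.ProjectiveSpecialLinearGroup (Fin 3) F4) = 20160 := by
  have h1 := card_SL (F := F4) card_F4 3 (by norm_num)
  have h2 := card_PSL_mul (F := F4) 3 (by norm_num)
  rw [card_F4] at h2
  have h3 : Nat.gcd 3 (4 - 1) = 3 := by norm_num
  rw [h3] at h2
  have h5 : (∏ i : Fin 3, (4 ^ 3 - 4 ^ (i : ℕ))) = 181440 := by decide
  rw [h5, h2] at h1
  omega

/-- Three-point stabilisers have order 20160. -/
theorem card_stab3 {p q r : GolayPt} (hpq : p ≠ q) (hpr : p ≠ r) (hqr : q ≠ r) :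
    Nat.card ↥(MulAction.stabilizer M24 p ⊓ MulAction.stabilizer M24 q ⊓
      MulAction.stabilizer M24 r) = 20160 := by
  let x : Fin 3 ↪ GolayPt := ⟨![p, q, r], by
    intro i j h
    fin_cases i <;> fin_cases j <;> simp_all⟩
  have h1 := card_stabilizer_embedding 3 (by norm_num) x 20160 (by decide)
  rw [← h1]
  apply Nat.card_congr
  apply Equiv.setCongr
  ext g
  simp only [Subgroup.mem_inf, MulAction.mem_stabilizer_iff, SetLike.mem_coe]
  constructor
  · rintro ⟨⟨h2, h3⟩, h4⟩
    refine Function.Embedding.ext fun i => ?_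
    fin_cases i
    · exact h2
    · exact h3
    · exact h4
  · intro h
    exact ⟨⟨congrArg (fun e : Fin 3 ↪ GolayPt => e 0) h, congrArg (fun e : Fin 3 ↪ GolayPt => e 1) h⟩,
      congrArg (fun e : Fin 3 ↪ GolayPt => e 2) h⟩

/-- The isomorphism over the explicit field. -/
theorem exists_iso {p q r : GolayPt} (hpq : p ≠ q) (hpr : p ≠ r) (hqr : q ≠ r) :
    Nonempty (↥(MulAction.stabilizer M24 p ⊓ MulAction.stabilizer M24 q ⊓
      MulAction.stabilizer M24 r) ≃* Matrix.ProjectiveSpecialLinearGroup (Fin 3) F4) := by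
  -- the base triple
  let x0 : Fin 3 ↪ GolayPt := ⟨![pt 1, pt 0, pt 23], by decide +kernel⟩
  let x : Fin 3 ↪ GolayPt := ⟨![p, q, r], by
    intro i j h
    fin_cases i <;> fin_cases j <;> simp_all⟩
  have hT : MulAction.IsPretransitive M24 (Fin 3 ↪ GolayPt) :=
    M24_isMultiplyPretransitive 3 (by norm_num)
  obtain ⟨g, hg⟩ := MulAction.exists_smul_eq M24 x0 x
  have hg0 : (g : Equiv.Perm GolayPt) (pt 1) = p :=
    congrArg (fun e : Fin 3 ↪ GolayPt => e 0) hg
  have hg1 : (g : Equiv.Perm GolayPt) (pt 0) = q :=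
    congrArg (fun e : Fin 3 ↪ GolayPt => e 1) hg
  have hg2 : (g : Equiv.Perm GolayPt) (pt 23) = r :=
    congrArg (fun e : Fin 3 ↪ GolayPt => e 2) hg
  let K := MulAction.stabilizer M24 p ⊓ MulAction.stabilizer M24 q ⊓ MulAction.stabilizer M24 r
  let φ : SL3 →* M24 := (MulAut.conj g).toMonoidHom.comp tauM
  have hfix : ∀ s : SL3, ∀ n : ℕ, isF n = true → (tauM s : Equiv.Perm GolayPt) (pt n) = pt n := by
    intro s n hn
    rw [tauM_apply, act]
    have hn' : n < 24 := by
      simp only [isF, Bool.or_eq_true, beq_iff_eq] at hn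
      omega
    rw [idx_pt hn', if_pos hn]
  have hφ : ∀ s, φ s ∈ K := by
    intro s
    have hc : ∀ n : ℕ, isF n = true → (φ s : Equiv.Perm GolayPt) ((g : Equiv.Perm GolayPt) (pt n)) =
        (g : Equiv.Perm GolayPt) (pt n) := by
      intro n hn
      show ((g : Equiv.Perm GolayPt) * (tauM s : Equiv.Perm GolayPt) * (g : Equiv.Perm GolayPt)⁻¹)
        ((g : Equiv.Perm GolayPt) (pt n)) = _
      simp [hfix s n hn]
    refine ⟨⟨?_, ?_⟩, ?_⟩
    · show (φ s : Equiv.Perm GolayPt) p = p
      rw [← hg0]; exact hc 1 rfl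
    · show (φ s : Equiv.Perm GolayPt) q = q
      rw [← hg1]; exact hc 0 rfl
    · show (φ s : Equiv.Perm GolayPt) r = r
      rw [← hg2]; exact hc 23 rfl
  let φ' : SL3 →* K := φ.codRestrict K hφ
  have hker : φ'.ker = Subgroup.center SL3 := by
    rw [← tau_ker]
    ext s
    simp only [MonoidHom.mem_ker]
    constructor
    · intro h
      have h1 : φ s = 1 := congrArg Subtype.val h
      have h2 : (MulAut.conj g) (tauM s) = 1 := h1
      simpa using h2
    · intro h
      apply Subtype.ext
      show (MulAut.conj g) (tauM s) = 1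
      rw [h, map_one]
  have hcardK : Nat.card K = 20160 := card_stab3 hpq hpr hqr
  have hrange : φ'.range = ⊤ := by
    apply Subgroup.eq_top_of_card_eq
    rw [hcardK, ← card_PSL]
    have e1 := QuotientGroup.quotientKerEquivRange φ'
    rw [← Nat.card_congr e1.toEquiv]
    exact Nat.card_congr (QuotientGroup.quotientMulEquivOfEq hker).toEquiv
  have hsurj : Function.Surjective φ' := MonoidHom.range_eq_top.1 hrange
  exact ⟨((QuotientGroup.quotientKerEquivOfSurjective φ' hsurj).symm).trans
    (QuotientGroup.quotientMulEquivOfEq hker)⟩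

end Cfsg.Agent.Lib.M24.M21PSL
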