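import Cfsg.Agent.Lib.Golay.Span
import Cfsg.Agent.Lib.Steiner.Count

/-!
# Linear automorphisms of the code with the orbits of `M24`

A linear automorphism of the code fixing the all-ones word and preserving the orbits of `M24` up to
adding the all-ones word is induced modulo the all-ones word by an element of `M24`.  The proof looks at
the dual of the code modulo the all-ones word: duads are recognised by counting octads.
-/

set_option autoImplicit false

namespace Cfsg.Agent.Lib.M24.AutC

open Cfsg Cfsg.Agent.Lib.Golay Cfsg.Agent.Lib.Steiner Finset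

/-- The number of octads meeting `Y` evenly. -/
noncomputable def ev (Y : Finset GolayPt) : ℕ :=
  ((blocks octads).filter (fun o => Even (o ∩ Y).card)).card

theorem nfib_zero {Y : Finset GolayPt} {i : ℕ} (h : Y.card < i) : nfib octads Y i = 0 := by
  rw [nfib, Finset.card_eq_zero, Finset.filter_eq_empty_iff]
  intro c _ hci
  have := Finset.card_le_card (Finset.inter_subset_right : c ∩ Y ⊆ Y)
  omega

theorem filter_disj (Y : Finset GolayPt) {i j : ℕ} (h : i ≠ j) :
    Disjoint ((blocks octads).filter (fun o => (o ∩ Y).card = i))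
      ((blocks octads).filter (fun o => (o ∩ Y).card = j)) := by
  rw [Finset.disjoint_left]
  intro o h1 h2
  rw [Finset.mem_filter] at h1 h2
  exact h (h1.2.symm.trans h2.2)

theorem ev_two {Y : Finset GolayPt} (hY : Y.card = 2) : ev Y = 407 := by
  have hα : Fintype.card GolayPt = 24 := by simp
  have m0 := moment octads_steiner Y 0 759 (by norm_num) (by decide) (by rw [hα]; decide)
  have m1 := moment octads_steiner Y 1 253 (by norm_num) (by decide) (by rw [hα]; decide)
  have m2 := moment octads_steiner Y 2 77 (by norm_num) (by decide) (by rw [hα]; decide)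
  rw [hY] at m0 m1 m2
  simp only [Finset.sum_range_succ, Finset.sum_range_zero] at m0 m1 m2
  rw [nfib_zero (by omega : Y.card < 3), nfib_zero (by omega : Y.card < 4),
    nfib_zero (by omega : Y.card < 5), nfib_zero (by omega : Y.card < 6),
    nfib_zero (by omega : Y.card < 7), nfib_zero (by omega : Y.card < 8)] at m0 m1 m2
  norm_num [Nat.choose] at m0 m1 m2
  have he : (blocks octads).filter (fun o => Even (o ∩ Y).card) =
      (blocks octads).filter (fun o => (o ∩ Y).card = 0) ∪
        (blocks octads).filter (fun o => (o ∩ Y).card = 2) := by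
    ext o
    simp only [Finset.mem_filter, Finset.mem_union]
    have hle := Finset.card_le_card (Finset.inter_subset_right : o ∩ Y ⊆ Y)
    constructor
    · rintro ⟨h1, h2⟩
      rcases (by obtain ⟨k, hk⟩ := h2; omega : (o ∩ Y).card = 0 ∨ (o ∩ Y).card = 2) with h | h
      · exact Or.inl ⟨h1, h⟩
      · exact Or.inr ⟨h1, h⟩
    · rintro (⟨h1, h⟩ | ⟨h1, h⟩)
      · exact ⟨h1, by rw [h]; decide⟩
      · exact ⟨h1, by rw [h]; decide⟩
  rw [ev, he, Finset.card_union_of_disjoint (filter_disj Y (by norm_num))]
  unfold nfib at m0 m1 m2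
  omega

theorem ev_four {Y : Finset GolayPt} (hY : Y.card = 4) : ev Y = 375 := by
  have hα : Fintype.card GolayPt = 24 := by simp
  have m0 := moment octads_steiner Y 0 759 (by norm_num) (by decide) (by rw [hα]; decide)
  have m1 := moment octads_steiner Y 1 253 (by norm_num) (by decide) (by rw [hα]; decide)
  have m2 := moment octads_steiner Y 2 77 (by norm_num) (by decide) (by rw [hα]; decide)
  have m3 := moment octads_steiner Y 3 21 (by norm_num) (by decide) (by rw [hα]; decide)
  have m4 := moment octads_steiner Y 4 5 (by norm_num) (by decide) (by rw [hα]; decide)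
  rw [hY] at m0 m1 m2 m3 m4
  simp only [Finset.sum_range_succ, Finset.sum_range_zero] at m0 m1 m2 m3 m4
  rw [nfib_zero (by omega : Y.card < 5), nfib_zero (by omega : Y.card < 6),
    nfib_zero (by omega : Y.card < 7), nfib_zero (by omega : Y.card < 8)] at m0 m1 m2 m3 m4
  norm_num [Nat.choose] at m0 m1 m2 m3 m4
  have he : (blocks octads).filter (fun o => Even (o ∩ Y).card) =
      ((blocks octads).filter (fun o => (o ∩ Y).card = 0) ∪
        (blocks octads).filter (fun o => (o ∩ Y).card = 2)) ∪
        (blocks octads).filter (fun o => (o ∩ Y).card = 4) := by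
    ext o
    simp only [Finset.mem_filter, Finset.mem_union]
    have hle := Finset.card_le_card (Finset.inter_subset_right : o ∩ Y ⊆ Y)
    constructor
    · rintro ⟨h1, h2⟩
      rcases (by obtain ⟨k, hk⟩ := h2; omega :
        (o ∩ Y).card = 0 ∨ (o ∩ Y).card = 2 ∨ (o ∩ Y).card = 4) with h | h | h
      · exact Or.inl (Or.inl ⟨h1, h⟩)
      · exact Or.inl (Or.inr ⟨h1, h⟩)
      · exact Or.inr ⟨h1, h⟩
    · rintro ((⟨h1, h⟩ | ⟨h1, h⟩) | ⟨h1, h⟩)
      · exact ⟨h1, by rw [h]; decide⟩
      · exact ⟨h1, by rw [h]; decide⟩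
      · exact ⟨h1, by rw [h]; decide⟩
  have hd : Disjoint ((blocks octads).filter (fun o => (o ∩ Y).card = 0) ∪
        (blocks octads).filter (fun o => (o ∩ Y).card = 2))
        ((blocks octads).filter (fun o => (o ∩ Y).card = 4)) := by
    rw [Finset.disjoint_union_left]
    exact ⟨filter_disj Y (by norm_num), filter_disj Y (by norm_num)⟩
  rw [ev, he, Finset.card_union_of_disjoint hd, Finset.card_union_of_disjoint (filter_disj Y (by norm_num))]
  unfold nfib at m0 m1 m2 m3 m4
  omega

theorem ev_zero : ev ∅ = 759 := by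
  have h1 : (blocks octads).filter (fun o => Even (o ∩ ∅).card) = blocks octads := by
    apply Finset.filter_true_of_mem
    intro o _
    simp
  rw [ev, h1, ← ncard_eq_card_blocks, ncard_octads]

section Words

/-- The indicator word. -/
def ind (S : Finset GolayPt) : GolayPt → ZMod 2 := fun p => if p ∈ S then 1 else 0

theorem sum_ind (S : Finset GolayPt) (c : GolayPt → ZMod 2) : ∑ i, c i * ind S i = ∑ a ∈ S, c a := by
  simp only [ind, mul_ite, mul_one, mul_zero]
  rw [Finset.sum_ite_mem, Finset.univ_inter]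

theorem support_ind (S : Finset GolayPt) : support₂ (ind S) = S := by
  ext p
  rw [mem_support₂]
  simp only [ind]
  by_cases h : p ∈ S <;> simp [h]

theorem mem_code_of_forall {v : GolayPt → ZMod 2} (h : ∀ c : ↥golayCode, ∑ i, (c : GolayPt → ZMod 2) i * v i = 0) :
    v ∈ golayCode := by
  apply mem_of_pairing
  intro g hg
  exact h ⟨_, basis_mem g hg⟩

/-- A sum of at most six evaluations which vanishes on the code is trivial. -/
theorem tri_zero {S₁ S₂ S₃ : Finset GolayPt} (hc : S₁.card + S₂.card + S₃.card ≤ 6)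
    (h : ∀ c : ↥golayCode, ∑ a ∈ S₁, (c : GolayPt → ZMod 2) a + ∑ a ∈ S₂, (c : GolayPt → ZMod 2) a +
      ∑ a ∈ S₃, (c : GolayPt → ZMod 2) a = 0) (t : GolayPt) :
    ind S₁ t + ind S₂ t + ind S₃ t = 0 := by
  have hv : ind S₁ + ind S₂ + ind S₃ ∈ golayCode := by
    apply mem_code_of_forall
    intro c
    have e : ∀ i, (c : GolayPt → ZMod 2) i * (ind S₁ + ind S₂ + ind S₃) i =
        (c : GolayPt → ZMod 2) i * ind S₁ i + (c : GolayPt → ZMod 2) i * ind S₂ i +
          (c : GolayPt → ZMod 2) i * ind S₃ i := by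
      intro i
      simp only [Pi.add_apply]
      ring
    simp_rw [e]
    rw [Finset.sum_add_distrib, Finset.sum_add_distrib, sum_ind, sum_ind, sum_ind]
    exact h c
  have hsub : support₂ (ind S₁ + ind S₂ + ind S₃) ⊆ S₁ ∪ S₂ ∪ S₃ := by
    intro p hp
    rw [mem_support₂] at hp
    simp only [Finset.mem_union]
    by_contra hno
    push Not at hno
    obtain ⟨⟨h1, h2⟩, h3⟩ := hno
    apply hp
    simp [ind, h1, h2, h3]
  have hle : hammingNorm (ind S₁ + ind S₂ + ind S₃) ≤ 6 := by
    rw [hammingNorm_eq]
    calc _ ≤ (S₁ ∪ S₂ ∪ S₃).card := Finset.card_le_card hsub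
      _ ≤ (S₁ ∪ S₂).card + S₃.card := Finset.card_union_le _ _
      _ ≤ S₁.card + S₂.card + S₃.card := by
          have := Finset.card_union_le S₁ S₂
          omega
      _ ≤ 6 := hc
  have h0 : hammingNorm (ind S₁ + ind S₂ + ind S₃) = 0 := by
    rcases weight_cases hv with h | h | h | h | h <;> omega
  rw [hammingNorm_eq_zero] at h0
  exact congrFun h0 t

theorem ind_mem {S : Finset GolayPt} {t : GolayPt} (h : t ∈ S) : ind S t = 1 := if_pos h

theorem ind_not_mem {S : Finset GolayPt} {t : GolayPt} (h : t ∉ S) : ind S t = 0 := if_neg h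

/-- Every functional on the code vanishing on the all-ones word is a sum of few evaluations. -/
theorem exists_small (ψ : ↥golayCode →ₗ[ZMod 2] ZMod 2) (h1 : ∀ c : ↥golayCode,
    (c : GolayPt → ZMod 2) = (fun _ => (1 : ZMod 2)) → ψ c = 0) :
    ∃ Y : Finset GolayPt, (Y.card = 0 ∨ Y.card = 2 ∨ Y.card = 4) ∧
      ∀ c : ↥golayCode, ψ c = ∑ a ∈ Y, (c : GolayPt → ZMod 2) a := by
  classical
  obtain ⟨g, hg⟩ := LinearMap.exists_extend ψ
  set Y₀ : Finset GolayPt := Finset.univ.filter (fun p => g (fun j => if p = j then 1 else 0) ≠ 0) with hY₀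
  have key : ∀ c : ↥golayCode, ψ c = ∑ a ∈ Y₀, (c : GolayPt → ZMod 2) a := by
    intro c
    have h2 : ψ c = g c := by
      rw [← hg]
      rfl
    rw [h2, LinearMap.pi_apply_eq_sum_univ g, hY₀, Finset.sum_filter]
    apply Finset.sum_congr rfl
    intro p _
    have hv : ∀ a b : ZMod 2, a • b = if b ≠ 0 then a else 0 := by decide
    rw [hv]
  -- reduce the size
  have red : ∀ n : ℕ, ∀ Y : Finset GolayPt, Y.card = n → (∀ c : ↥golayCode, ψ c = ∑ a ∈ Y, (c : GolayPt → ZMod 2) a) →
      ∃ Y' : Finset GolayPt, Y'.card ≤ 4 ∧ ∀ c : ↥golayCode, ψ c = ∑ a ∈ Y', (c : GolayPt → ZMod 2) a := by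
    intro n
    induction n using Nat.strong_induction_on with
    | _ n ih =>
    intro Y hYn hY
    by_cases hle : Y.card ≤ 4
    · exact ⟨Y, hle, hY⟩
    · obtain ⟨s, hsY, hs⟩ := Finset.exists_subset_card_eq (s := Y) (n := 5) (by omega)
      obtain ⟨o, ho, hso⟩ := octads_exists s hs
      have hcard := card_symmDiff_add Y o
      have hinter : 5 ≤ (Y ∩ o).card := by
        rw [← hs]
        exact Finset.card_le_card (Finset.subset_inter hsY hso)
      rw [octads_card ho] at hcard
      refine ih (symmDiff Y o).card (by omega) (symmDiff Y o) rfl ?_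
      intro c
      have h3 : ∑ a ∈ o, (c : GolayPt → ZMod 2) a = 0 := by
        obtain ⟨⟨w, hw, rfl⟩, -⟩ := ho
        have := pairing_eq_zero c.2 hw
        rw [← this]
        have h5 : ∀ i, (c : GolayPt → ZMod 2) i * w i = if i ∈ support₂ w then (c : GolayPt → ZMod 2) i else 0 := by
          intro i
          have hz : ∀ x y : ZMod 2, x * y = if y ≠ 0 then x else 0 := by decide
          rw [hz]
          simp only [mem_support₂]
        simp_rw [h5]
        rw [Finset.sum_ite_mem, Finset.univ_inter]
      have h4 : ∑ a ∈ symmDiff Y o, (c : GolayPt → ZMod 2) a =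
          ∑ a ∈ Y, (c : GolayPt → ZMod 2) a + ∑ a ∈ o, (c : GolayPt → ZMod 2) a := by
        have h6 := Finset.sum_sdiff (f := (c : GolayPt → ZMod 2)) (Finset.inter_subset_left : Y ∩ o ⊆ Y)
        have h7 := Finset.sum_sdiff (f := (c : GolayPt → ZMod 2)) (Finset.inter_subset_right : Y ∩ o ⊆ o)
        have h8 : symmDiff Y o = (Y \ (Y ∩ o)) ∪ (o \ (Y ∩ o)) := by
          ext a
          simp only [Finset.mem_symmDiff, Finset.mem_union, Finset.mem_sdiff, Finset.mem_inter]
          tauto
        have h9 : Disjoint (Y \ (Y ∩ o)) (o \ (Y ∩ o)) := by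
          rw [Finset.disjoint_left]
          intro a ha hb
          simp only [Finset.mem_sdiff, Finset.mem_inter] at ha hb
          tauto
        rw [h8, Finset.sum_union h9, ← h6, ← h7]
        have hd : ∀ x : ZMod 2, x + x = 0 := by decide
        set A := ∑ a ∈ Y \ (Y ∩ o), (c : GolayPt → ZMod 2) a
        set B := ∑ a ∈ o \ (Y ∩ o), (c : GolayPt → ZMod 2) a
        set C := ∑ a ∈ Y ∩ o, (c : GolayPt → ZMod 2) a
        calc A + B = A + B + (C + C) := by rw [hd, add_zero]
          _ = _ := by ring
      rw [h4, h3, add_zero]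
      exact hY c
  obtain ⟨Y, hY4, hY⟩ := red _ Y₀ rfl key
  refine ⟨Y, ?_, hY⟩
  have hone : (fun _ => (1 : ZMod 2)) ∈ golayCode := by
    have h5 : (fun _ => (1 : ZMod 2)) = (1 : GolayPt → ZMod 2) := rfl
    rw [h5, one_eq]
    exact mem_of_inCode (by decide +kernel)
  have h6 := hY ⟨_, hone⟩
  rw [h1 _ rfl] at h6
  simp only [Finset.sum_const, nsmul_eq_mul, mul_one] at h6
  have h7 : Even Y.card := (ZMod.natCast_eq_zero_iff_even).1 h6.symm
  obtain ⟨k, hk⟩ := h7
  omega

end Words

section Star

variable {I α : Type*} [DecidableEq α]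

/-- A family of pairwise meeting two-sets with at least four members has a common point. -/
theorem star {F : I → Finset α} (hc : ∀ i, (F i).card = 2) (hinj : Function.Injective F)
    (hm : ∀ i j, i ≠ j → (F i ∩ F j).Nonempty) {i₁ i₂ : I} (h12 : i₁ ≠ i₂)
    (hnew : ∀ a b c : I, ∃ d, d ≠ a ∧ d ≠ b ∧ d ≠ c) : ∃ u, ∀ i, u ∈ F i := by
  obtain ⟨u, hu⟩ := hm i₁ i₂ h12
  rw [Finset.mem_inter] at hu
  by_contra hno
  push Not at hno
  obtain ⟨i₃, hi₃⟩ := hno u
  -- a two-set containing `u`
  have other : ∀ i, u ∈ F i → ∃ v, v ≠ u ∧ F i = {u, v} := by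
    intro i hi
    obtain ⟨a, b, hab, hF⟩ := Finset.card_eq_two.1 (hc i)
    rw [hF] at hi ⊢
    simp only [Finset.mem_insert, Finset.mem_singleton] at hi
    rcases hi with rfl | rfl
    · exact ⟨b, hab.symm, rfl⟩
    · exact ⟨a, hab, Finset.pair_comm _ _⟩
  obtain ⟨v, hvu, h1⟩ := other i₁ hu.1
  obtain ⟨w, hwu, h2⟩ := other i₂ hu.2
  have hvw : v ≠ w := by
    rintro rfl
    exact h12 (hinj (h1.trans h2.symm))
  have hne31 : i₃ ≠ i₁ := by
    rintro rfl
    exact hi₃ hu.1
  have hne32 : i₃ ≠ i₂ := by
    rintro rfl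
    exact hi₃ hu.2
  have hv3 : v ∈ F i₃ := by
    obtain ⟨t, ht⟩ := hm i₃ i₁ hne31
    rw [Finset.mem_inter, h1] at ht
    simp only [Finset.mem_insert, Finset.mem_singleton] at ht
    rcases ht with ⟨h3, rfl | rfl⟩
    · exact absurd h3 hi₃
    · exact h3
  have hw3 : w ∈ F i₃ := by
    obtain ⟨t, ht⟩ := hm i₃ i₂ hne32
    rw [Finset.mem_inter, h2] at ht
    simp only [Finset.mem_insert, Finset.mem_singleton] at ht
    rcases ht with ⟨h3, rfl | rfl⟩
    · exact absurd h3 hi₃
    · exact h3
  have h3 : F i₃ = {v, w} := by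
    symm
    apply Finset.eq_of_subset_of_card_le
    · intro t ht
      simp only [Finset.mem_insert, Finset.mem_singleton] at ht
      rcases ht with rfl | rfl <;> assumption
    · rw [hc, Finset.card_pair hvw]
  obtain ⟨i₄, h41, h42, h43⟩ := hnew i₁ i₂ i₃
  have hmem : ∀ t ∈ F i₄, t = u ∨ t = v ∨ t = w := by
    -- it meets all three
    obtain ⟨a, b, hab, hF⟩ := Finset.card_eq_two.1 (hc i₄)
    have m1 := hm i₄ i₁ h41
    have m2 := hm i₄ i₂ h42
    have m3 := hm i₄ i₃ h43
    rw [hF, h1] at m1
    rw [hF, h2] at m2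
    rw [hF, h3] at m3
    simp only [Finset.Nonempty, Finset.mem_inter, Finset.mem_insert, Finset.mem_singleton] at m1 m2 m3
    obtain ⟨t₁, h11, h12'⟩ := m1
    obtain ⟨t₂, h21, h22⟩ := m2
    obtain ⟨t₃, h31, h32⟩ := m3
    intro t ht
    rw [hF] at ht
    simp only [Finset.mem_insert, Finset.mem_singleton] at ht
    -- if the set contains a point outside the triangle, the other point must be in all three
    by_contra hout
    push Not at hout
    obtain ⟨n1, n2, n3⟩ := hout
    rcases ht with rfl | rfl
    · have e1 : t₁ = b := by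
        rcases h11 with rfl | rfl
        · rcases h12' with rfl | rfl
          · exact absurd rfl n1
          · exact absurd rfl n2
        · rfl
      have e2 : t₂ = b := by
        rcases h21 with rfl | rfl
        · rcases h22 with rfl | rfl
          · exact absurd rfl n1
          · exact absurd rfl n3
        · rfl
      have e3 : t₃ = b := by
        rcases h31 with rfl | rfl
        · rcases h32 with rfl | rfl
          · exact absurd rfl n2
          · exact absurd rfl n3
        · rfl
      subst e1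
      subst e2
      subst e3
      rcases h12' with rfl | rfl
      · rcases h32 with h | h
        · exact hvu h.symm
        · exact hwu h.symm
      · rcases h22 with h | h
        · exact hvu h
        · exact hvw h
    · have e1 : t₁ = a := by
        rcases h11 with rfl | rfl
        · rfl
        · rcases h12' with rfl | rfl
          · exact absurd rfl n1
          · exact absurd rfl n2
      have e2 : t₂ = a := by
        rcases h21 with rfl | rfl
        · rfl
        · rcases h22 with rfl | rfl
          · exact absurd rfl n1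
          · exact absurd rfl n3
      have e3 : t₃ = a := by
        rcases h31 with rfl | rfl
        · rfl
        · rcases h32 with rfl | rfl
          · exact absurd rfl n2
          · exact absurd rfl n3
      subst e1
      subst e2
      subst e3
      rcases h12' with rfl | rfl
      · rcases h32 with h | h
        · exact hvu h.symm
        · exact hwu h.symm
      · rcases h22 with h | h
        · exact hvu h
        · exact hvw h
  obtain ⟨a, b, hab, hF⟩ := Finset.card_eq_two.1 (hc i₄)
  have ha := hmem a (by rw [hF]; simp)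
  have hb := hmem b (by rw [hF]; simp)
  have huv : u ≠ v := hvu.symm
  have huw : u ≠ w := hwu.symm
  rcases ha with rfl | rfl | rfl <;> rcases hb with rfl | rfl | rfl
  · exact hab rfl
  · exact h41 (hinj (hF.trans h1.symm))
  · exact h42 (hinj (hF.trans h2.symm))
  · exact h41 (hinj ((hF.trans (Finset.pair_comm _ _)).trans h1.symm))
  · exact hab rfl
  · exact h43 (hinj (hF.trans h3.symm))
  · exact h42 (hinj ((hF.trans (Finset.pair_comm _ _)).trans h2.symm))
  · exact h43 (hinj ((hF.trans (Finset.pair_comm _ _)).trans h3.symm))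
  · exact hab rfl

end Star

section Auto

/-- The all-ones word. -/
def oneW : GolayPt → ZMod 2 := fun _ => 1

theorem oneW_mem : oneW ∈ golayCode := by
  have h5 : oneW = (1 : GolayPt → ZMod 2) := rfl
  rw [h5, one_eq]
  exact mem_of_inCode (by decide +kernel)

/-- The all-ones word in the code. -/
def oneC : ↥golayCode := ⟨oneW, oneW_mem⟩

theorem norm_add_one (w : GolayPt → ZMod 2) : hammingNorm (w + oneW) = 24 - hammingNorm w := by
  have h1 : support₂ (w + oneW) = (support₂ w)ᶜ := by
    ext a
    simp only [mem_support₂, Finset.mem_compl, Pi.add_apply, oneW]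
    have key : ∀ x : ZMod 2, x + 1 ≠ 0 ↔ ¬ x ≠ 0 := by decide
    exact key _
  rw [hammingNorm_eq, hammingNorm_eq, h1, Finset.card_compl]
  simp

theorem norm_permWord (σ : Equiv.Perm GolayPt) (w : GolayPt → ZMod 2) :
    hammingNorm (permWord σ w) = hammingNorm w := by
  rw [hammingNorm_eq, hammingNorm_eq, support_permWord, Finset.card_smul_finset]

/-- The hypotheses on the automorphism. -/
structure Hx (x : ↥golayCode ≃ₗ[ZMod 2] ↥golayCode) : Prop where
  fix1 : x oneC = oneC
  orb : ∀ c : ↥golayCode, ∃ σ ∈ M24, ((x c : ↥golayCode) : GolayPt → ZMod 2) = permWord σ c ∨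
    ((x c : ↥golayCode) : GolayPt → ZMod 2) = permWord σ c + oneW

variable {x : ↥golayCode ≃ₗ[ZMod 2] ↥golayCode}

open Classical in
/-- The map on octads. -/
noncomputable def TT (x : ↥golayCode ≃ₗ[ZMod 2] ↥golayCode) (c : ↥golayCode) : ↥golayCode :=
  if hammingNorm ((x c : ↥golayCode) : GolayPt → ZMod 2) = 8 then x c else x c + oneC

theorem add_oneC_norm (c : ↥golayCode) :
    hammingNorm ((c + oneC : ↥golayCode) : GolayPt → ZMod 2) = 24 - hammingNorm (c : GolayPt → ZMod 2) :=
  norm_add_one _

theorem TT_norm (hx : Hx x) {c : ↥golayCode} (hc : hammingNorm (c : GolayPt → ZMod 2) = 8) :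
    hammingNorm ((TT x c : ↥golayCode) : GolayPt → ZMod 2) = 8 := by
  classical
  unfold TT
  obtain ⟨σ, -, h | h⟩ := hx.orb c
  · have h1 : hammingNorm ((x c : ↥golayCode) : GolayPt → ZMod 2) = 8 := by
      rw [h, norm_permWord, hc]
    rw [if_pos h1, h1]
  · have h1 : hammingNorm ((x c : ↥golayCode) : GolayPt → ZMod 2) = 16 := by
      rw [h, norm_add_one, norm_permWord, hc]
    rw [if_neg (by omega), add_oneC_norm, h1]

theorem TT_inj (hx : Hx x) {c c' : ↥golayCode} (hc : hammingNorm (c : GolayPt → ZMod 2) = 8)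
    (hc' : hammingNorm (c' : GolayPt → ZMod 2) = 8) (h : TT x c = TT x c') : c = c' := by
  classical
  unfold TT at h
  have hd : ∀ c : ↥golayCode, c + oneC + oneC = c := by
    intro c
    apply Subtype.ext
    funext p
    simp only [Submodule.coe_add, Pi.add_apply]
    have : ∀ a b : ZMod 2, a + b + b = a := by decide
    exact this _ _
  have key : ∀ a b : ↥golayCode, hammingNorm (a : GolayPt → ZMod 2) = 8 → hammingNorm (b : GolayPt → ZMod 2) = 8 →
      x a = x b + oneC → False := by
    intro a b ha hb hab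
    have h1 : x a = x (b + oneC) := by
      rw [map_add, hx.fix1, hab]
    have h2 := x.injective h1
    rw [h2, add_oneC_norm, hb] at ha
    omega
  split_ifs at h with h1 h2 h2
  · exact x.injective h
  · exact (key c c' hc hc' h).elim
  · exact (key c' c hc' hc h.symm).elim
  · have h3 : x c = x c' := by
      rw [← hd (x c), h, hd]
    exact x.injective h3

theorem TT_sum {Y : Finset GolayPt} (hY : Even Y.card) (c : ↥golayCode) :
    ∑ a ∈ Y, ((TT x c : ↥golayCode) : GolayPt → ZMod 2) a =
      ∑ a ∈ Y, ((x c : ↥golayCode) : GolayPt → ZMod 2) a := by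
  classical
  unfold TT
  split_ifs with h
  · rfl
  · simp only [Submodule.coe_add, Pi.add_apply]
    rw [Finset.sum_add_distrib]
    have h1 : ∑ a ∈ Y, (oneC : GolayPt → ZMod 2) a = 0 := by
      have : ∀ a, (oneC : GolayPt → ZMod 2) a = 1 := fun _ => rfl
      simp only [this, Finset.sum_const, nsmul_eq_mul, mul_one]
      exact (ZMod.natCast_eq_zero_iff_even).2 hY
    rw [h1, add_zero]

/-- The set of octad words meeting `Y` evenly. -/
def EE (Y : Finset GolayPt) : Set ↥golayCode :=
  {c | hammingNorm (c : GolayPt → ZMod 2) = 8 ∧ ∑ a ∈ Y, (c : GolayPt → ZMod 2) a = 0}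

theorem sum_eq_card (w : GolayPt → ZMod 2) (Y : Finset GolayPt) :
    ∑ a ∈ Y, w a = ((support₂ w ∩ Y).card : ZMod 2) := by
  have h1 : ∀ a, w a = if a ∈ support₂ w then 1 else 0 := by
    intro a
    have key : ∀ x : ZMod 2, x = if x ≠ 0 then 1 else 0 := by decide
    simp only [mem_support₂]
    exact key _
  rw [Finset.sum_congr rfl (fun a _ => h1 a), Finset.sum_ite_mem, Finset.sum_const, nsmul_eq_mul, mul_one,
    Finset.inter_comm]

theorem ncard_EE (Y : Finset GolayPt) : (EE Y).ncard = ev Y := by
  classical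
  have hf : Function.Injective (fun c : ↥golayCode => support₂ (c : GolayPt → ZMod 2)) := by
    intro a b h
    exact Subtype.ext (support_inj h)
  rw [← Set.ncard_image_of_injective _ hf, ev, ← Set.ncard_coe_finset]
  congr 1
  ext o
  simp only [Set.mem_image, Finset.coe_filter, mem_blocks, Set.mem_ofPred_eq]
  constructor
  · rintro ⟨c, ⟨h1, h2⟩, rfl⟩
    refine ⟨⟨⟨_, c.2, rfl⟩, h1⟩, ?_⟩
    rw [sum_eq_card] at h2
    exact (ZMod.natCast_eq_zero_iff_even).1 h2
  · rintro ⟨⟨⟨w, hw, rfl⟩, h1⟩, h2⟩
    refine ⟨⟨w, hw⟩, ⟨h1, ?_⟩, rfl⟩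
    show ∑ a ∈ Y, w a = 0
    rw [sum_eq_card]
    exact (ZMod.natCast_eq_zero_iff_even).2 h2

/-- Counting octads gives the invariant. -/
theorem ev_eq (hx : Hx x) {Y Y' : Finset GolayPt} (hY : Even Y.card)
    (h : ∀ c : ↥golayCode, ∑ a ∈ Y, ((x c : ↥golayCode) : GolayPt → ZMod 2) a =
      ∑ a ∈ Y', (c : GolayPt → ZMod 2) a) : ev Y' = ev Y := by
  classical
  rw [← ncard_EE, ← ncard_EE]
  set A : Set ↥golayCode := {c | hammingNorm (c : GolayPt → ZMod 2) = 8} with hA
  have hT : Set.InjOn (TT x) A := fun a ha b hb hab => TT_inj hx ha hb hab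
  have himg : TT x '' A = A := by
    apply Set.eq_of_subset_of_ncard_le
    · rintro _ ⟨c, hc, rfl⟩
      exact TT_norm hx hc
    · rw [Set.InjOn.ncard_image hT]
    · exact Set.toFinite _
  have hE : EE Y = TT x '' EE Y' := by
    ext d
    constructor
    · rintro ⟨h1, h2⟩
      have h3 : d ∈ TT x '' A := by rw [himg]; exact h1
      obtain ⟨c, hc, rfl⟩ := h3
      refine ⟨c, ⟨hc, ?_⟩, rfl⟩
      rw [TT_sum hY, h] at h2
      exact h2
    · rintro ⟨c, ⟨h1, h2⟩, rfl⟩
      refine ⟨TT_norm hx h1, ?_⟩
      rw [TT_sum hY, h]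
      exact h2
  rw [hE, Set.InjOn.ncard_image (hT.mono fun c hc => hc.1)]

/-- Duads go to duads. -/
theorem exists_F (hx : Hx x) (p q : GolayPt) (hpq : p ≠ q) :
    ∃ A : Finset GolayPt, A.card = 2 ∧ ∀ c : ↥golayCode,
      ((x c : ↥golayCode) : GolayPt → ZMod 2) p + ((x c : ↥golayCode) : GolayPt → ZMod 2) q =
        ∑ a ∈ A, (c : GolayPt → ZMod 2) a := by
  classical
  let ψ : ↥golayCode →ₗ[ZMod 2] ZMod 2 :=
    ((LinearMap.proj p : (GolayPt → ZMod 2) →ₗ[ZMod 2] ZMod 2) + LinearMap.proj q).comp
      (golayCode.subtype.comp x.toLinearMap)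
  have hψ : ∀ c, ψ c = ((x c : ↥golayCode) : GolayPt → ZMod 2) p + ((x c : ↥golayCode) : GolayPt → ZMod 2) q :=
    fun _ => rfl
  obtain ⟨Y, hY, hYs⟩ := exists_small ψ (by
    intro c hc
    have h1 : c = oneC := Subtype.ext hc
    rw [hψ, h1, hx.fix1]
    show (1 : ZMod 2) + 1 = 0
    decide)
  have hcard : ({p, q} : Finset GolayPt).card = 2 := Finset.card_pair hpq
  have h2 : ev Y = ev {p, q} := by
    apply ev_eq hx (by rw [hcard]; decide)
    intro c
    rw [Finset.sum_pair hpq, ← hψ, hYs]
  rw [ev_two hcard] at h2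
  refine ⟨Y, ?_, fun c => by rw [← hψ, hYs]⟩
  rcases hY with h | h | h
  · rw [Finset.card_eq_zero] at h
    rw [h, ev_zero] at h2
    omega
  · exact h
  · rw [ev_four h] at h2
    omega

/-- The main theorem. -/
theorem main (hx : Hx x) : ∃ σ ∈ M24, ∀ c : ↥golayCode,
    ((x c : ↥golayCode) : GolayPt → ZMod 2) = permWord σ c ∨
    ((x c : ↥golayCode) : GolayPt → ZMod 2) = permWord σ c + oneW := by
  classical
  choose! F hF using exists_F hx
  have hd : ∀ a : ZMod 2, a + a = 0 := by decide
  have hsymm : ∀ p q, p ≠ q → F p q = F q p := by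
    intro p q hpq
    have h1 := hF p q hpq
    have h2 := hF q p hpq.symm
    have h3 := tri_zero (S₁ := F p q) (S₂ := F q p) (S₃ := ∅) (by rw [h1.1, h2.1]; simp) (by
      intro c
      rw [← h1.2, ← h2.2, Finset.sum_empty, add_zero, add_comm ((_ : GolayPt → ZMod 2) q)]
      exact hd _)
    ext t
    have h4 := h3 t
    by_cases h5 : t ∈ F p q <;> by_cases h6 : t ∈ F q p <;> simp only [h5, h6]
    · exfalso
      rw [ind_mem h5, ind_not_mem h6, ind_not_mem (Finset.notMem_empty t)] at h4
      exact absurd h4 (by decide)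
    · exfalso
      rw [ind_not_mem h5, ind_mem h6, ind_not_mem (Finset.notMem_empty t)] at h4
      exact absurd h4 (by decide)
  have hinj : ∀ p q r, p ≠ q → p ≠ r → F p q = F p r → q = r := by
    intro p q r hpq hpr he
    by_contra hne
    have h1 := tri_zero (S₁ := {q}) (S₂ := {r}) (S₃ := ∅) (by simp) (by
      intro c
      have h2 := (hF p q hpq).2 (x.symm c)
      have h3 := (hF p r hpr).2 (x.symm c)
      rw [he, ← h3] at h2
      simp only [LinearEquiv.apply_symm_apply] at h2
      have h4 := add_left_cancel h2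
      simp only [Finset.sum_singleton, Finset.sum_empty, add_zero]
      rw [h4]
      exact hd _) q
    rw [ind_mem (Finset.mem_singleton_self q), ind_not_mem (by simpa using hne), ind_not_mem (Finset.notMem_empty q)] at h1
    exact absurd h1 (by decide)
  have htri : ∀ p q r, p ≠ q → q ≠ r → p ≠ r → ∀ t, ind (F p q) t + ind (F q r) t + ind (F p r) t = 0 := by
    intro p q r hpq hqr hpr
    have h1 := hF p q hpq
    have h2 := hF q r hqr
    have h3 := hF p r hpr
    apply tri_zero (by rw [h1.1, h2.1, h3.1])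
    intro c
    rw [← h1.2, ← h2.2, ← h3.2]
    set A := ((x c : ↥golayCode) : GolayPt → ZMod 2) p
    set B := ((x c : ↥golayCode) : GolayPt → ZMod 2) q
    set C := ((x c : ↥golayCode) : GolayPt → ZMod 2) r
    calc A + B + (B + C) + (A + C) = (A + A) + (B + B) + (C + C) := by ring
      _ = 0 := by rw [hd A, hd B, hd C, add_zero, add_zero]
  have hfresh : ∀ s : Finset GolayPt, s.card < 24 → ∃ t, t ∉ s := by
    intro s hs
    by_contra hno
    push Not at hno
    have h1 : s = Finset.univ := Finset.eq_univ_iff_forall.2 hno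
    rw [h1] at hs
    simp at hs
  have hstar : ∀ p, ∃ u, ∀ q, p ≠ q → u ∈ F p q := by
    intro p
    obtain ⟨q₁, hq₁⟩ := hfresh {p} (by simp)
    obtain ⟨q₂, hq₂⟩ := hfresh {p, q₁} (by
      have := Finset.card_le_two (a := p) (b := q₁)
      omega)
    simp only [Finset.mem_singleton, Finset.mem_insert, not_or] at hq₁ hq₂
    obtain ⟨u, hu⟩ := star (I := {q // p ≠ q}) (F := fun q => F p q.1) (i₁ := ⟨q₁, fun h => hq₁ h.symm⟩)
      (i₂ := ⟨q₂, fun h => hq₂.1 h.symm⟩)
      (fun q => (hF p q.1 q.2).1)
      (fun a b hab => Subtype.ext (hinj p _ _ a.2 b.2 hab))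
      (by
        rintro ⟨q, hq⟩ ⟨r, hr⟩ hne
        have hqr : q ≠ r := fun h => hne (Subtype.ext h)
        by_contra hno
        rw [Finset.not_nonempty_iff_eq_empty] at hno
        have hA := (hF p q hq).1
        have hB := (hF q r hqr).1
        have hE := (hF p r hr).1
        have hdisj : Disjoint (F p q) (F p r) := Finset.disjoint_iff_inter_eq_empty.2 hno
        have hsub : F p q ∪ F p r ⊆ F q r := by
          intro t ht
          by_contra hb
          have h1 := htri p q r hq hqr hr t
          rw [ind_not_mem hb] at h1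
          rcases Finset.mem_union.1 ht with h2 | h2
          · have h3 : t ∉ F p r := Finset.disjoint_left.1 hdisj h2
            rw [ind_mem h2, ind_not_mem h3] at h1
            exact absurd h1 (by decide)
          · have h3 : t ∉ F p q := Finset.disjoint_right.1 hdisj h2
            rw [ind_not_mem h3, ind_mem h2] at h1
            exact absurd h1 (by decide)
        have h5 := Finset.card_le_card hsub
        rw [Finset.card_union_of_disjoint hdisj, hA, hB, hE] at h5
        omega)
      (fun h => hq₂.2 (congrArg Subtype.val h).symm)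
      (by
        rintro ⟨a, ha⟩ ⟨b, hb⟩ ⟨c, hc⟩
        obtain ⟨d, hd'⟩ := hfresh {p, a, b, c} (by
          have : ({p, a, b, c} : Finset GolayPt).card ≤ 4 := Finset.card_le_four
          omega)
        simp only [Finset.mem_insert, Finset.mem_singleton, not_or] at hd'
        exact ⟨⟨d, fun h => hd'.1 h.symm⟩, fun h => hd'.2.1 (congrArg Subtype.val h),
          fun h => hd'.2.2.1 (congrArg Subtype.val h), fun h => hd'.2.2.2 (congrArg Subtype.val h)⟩)
    exact ⟨u, fun q hq => hu ⟨q, hq⟩⟩
  choose τ hτ using hstar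
  have τinj : Function.Injective τ := by
    intro p q he
    by_contra hpq
    obtain ⟨r, hr⟩ := hfresh {p, q} (by
      have := Finset.card_le_two (a := p) (b := q)
      omega)
    simp only [Finset.mem_insert, Finset.mem_singleton, not_or] at hr
    have h1 := htri p q r hpq (fun h => hr.2 h.symm) (fun h => hr.1 h.symm) (τ p)
    have m1 := hτ p q hpq
    have m2 := hτ p r (fun h => hr.1 h.symm)
    have m3 := hτ q r (fun h => hr.2 h.symm)
    rw [← he] at m3
    rw [ind_mem m1, ind_mem m2, ind_mem m3] at h1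
    exact absurd h1 (by decide)
  have hval : ∀ (c : ↥golayCode) p q, p ≠ q →
      ((x c : ↥golayCode) : GolayPt → ZMod 2) p + ((x c : ↥golayCode) : GolayPt → ZMod 2) q =
        (c : GolayPt → ZMod 2) (τ p) + (c : GolayPt → ZMod 2) (τ q) := by
    intro c p q hpq
    rw [(hF p q hpq).2]
    have h1 : F p q = {τ p, τ q} := by
      symm
      apply Finset.eq_of_subset_of_card_le
      · intro t ht
        simp only [Finset.mem_insert, Finset.mem_singleton] at ht
        rcases ht with rfl | rfl
        · exact hτ p q hpq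
        · rw [hsymm p q hpq]
          exact hτ q p hpq.symm
      · rw [(hF p q hpq).1, Finset.card_pair (fun h => hpq (τinj h))]
    rw [h1, Finset.sum_pair (fun h => hpq (τinj h))]
  let T : Equiv.Perm GolayPt := Equiv.ofBijective τ (Finite.injective_iff_bijective.1 τinj)
  have hpw : ∀ (c : ↥golayCode) (p : GolayPt), permWord T.symm c p = (c : GolayPt → ZMod 2) (τ p) := fun _ _ => rfl
  have hform : ∀ (c : ↥golayCode) p, ((x c : ↥golayCode) : GolayPt → ZMod 2) p =
      permWord T.symm c p + (((x c : ↥golayCode) : GolayPt → ZMod 2) none + (c : GolayPt → ZMod 2) (τ none)) := by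
    intro c p
    rw [hpw]
    by_cases hp : p = none
    · subst hp
      set A := ((x c : ↥golayCode) : GolayPt → ZMod 2) none
      set B := (c : GolayPt → ZMod 2) (τ none)
      calc A = A + (B + B) := by rw [hd, add_zero]
        _ = _ := by ring
    · have h1 := hval c p none hp
      set A := ((x c : ↥golayCode) : GolayPt → ZMod 2) p
      set A' := ((x c : ↥golayCode) : GolayPt → ZMod 2) none
      set B := (c : GolayPt → ZMod 2) (τ p)
      set B' := (c : GolayPt → ZMod 2) (τ none)
      calc A = (A + A') + A' := by rw [add_assoc, hd, add_zero]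
        _ = (B + B') + A' := by rw [h1]
        _ = _ := by ring
  have hcases : ∀ c : ↥golayCode, ((x c : ↥golayCode) : GolayPt → ZMod 2) = permWord T.symm c ∨
      ((x c : ↥golayCode) : GolayPt → ZMod 2) = permWord T.symm c + oneW := by
    intro c
    have h01 : ∀ a : ZMod 2, a = 0 ∨ a = 1 := by decide
    rcases h01 (((x c : ↥golayCode) : GolayPt → ZMod 2) none + (c : GolayPt → ZMod 2) (τ none)) with h | h
    · left
      funext p
      rw [hform c p, h, add_zero]
    · right
      funext p
      rw [hform c p, h]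
      rfl
  refine ⟨T.symm, ?_, hcases⟩
  apply mem_M24_of_forall
  intro w hw
  rcases hcases ⟨w, hw⟩ with h | h
  · rw [show permWord T.symm w = permWord T.symm (⟨w, hw⟩ : ↥golayCode) from rfl, ← h]
    exact (x ⟨w, hw⟩).2
  · have h2 : permWord T.symm w = ((x ⟨w, hw⟩ : ↥golayCode) : GolayPt → ZMod 2) + oneW := by
      rw [h]
      funext p
      simp only [Pi.add_apply]
      have : ∀ a b : ZMod 2, a = a + b + b := by decide
      exact this _ _
    rw [h2]
    exact golayCode.add_mem (x ⟨w, hw⟩).2 oneW_mem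

end Auto

end Cfsg.Agent.Lib.M24.AutC
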