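import Cfsg.Agent.Lib.M24.Enum
import Cfsg.Agent.Lib.M24.Cent3Data

/-!
# Centralisers of elements of order three in `M24`
-/

set_option autoImplicit false

namespace Cfsg.Agent.Lib.M24

open Cfsg Cfsg.Agent.Lib.Compute Cfsg.Agent.Lib.Golay
open scoped Pointwise

/-- The images of the base points for an element commuting with `r`, from `σ 23` and `σ 2`. -/
noncomputable def I3 (r n i : ℕ) : ℕ :=
  (fun y u => bcond (Nat.beq i 0) y (bcond (Nat.beq i 1) (pc r y) (bcond (Nat.beq i 2) (pc r (pc r y))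
    (bcond (Nat.beq i 3) u (pc r u))))) (n / 24) (n % 24)

theorem centr3 {r : ℕ} {tbl : ℕ → ℕ} {Φ : (ℕ → ℕ) → Bool} (hr : vld r = true) (h1 : pc r 23 = 0)
    (h2 : pc r 0 = 1) (h3 : pc r 1 = 23) (h4 : pc r 2 = 3)
    (hchk : enumChk 576 (I3 r) tbl Φ = true) {σ : Equiv.Perm GolayPt} (hσ : σ ∈ M24)
    (hc : σ * ppm r = ppm r * σ) : ∃ f, enc.IsCode σ f ∧ Φ f = true := by
  have hcode := vld_code hr
  have hcomm : ∀ a, σ (ppm r a) = ppm r (σ a) := fun a => by
    have := congrArg (fun s : Equiv.Perm GolayPt => s a) hc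
    simpa using this
  have hstep : ∀ i j, i < 24 → pc r i = j → idx (σ (pt j)) = pc r (idx (σ (pt i))) := by
    intro i j hi hij
    have h5 : ppm r (pt i) = pt j := by
      rw [code_pt hcode hi, hij]
    rw [← h5, hcomm]
    have := hcode (σ (pt i))
    simpa using this.symm
  set y := idx (σ (pt 23)) with hy
  set u := idx (σ (pt 2)) with hu
  have hylt : y < 24 := idx_lt _
  have hult : u < 24 := idx_lt _
  obtain ⟨b0, b1, b2, b3, b4⟩ := baseAt_vals
  have hn : (24 * y + u) < 576 := by omega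
  have hdiv : (24 * y + u) / 24 = y := by omega
  have hmod : (24 * y + u) % 24 = u := by omega
  refine enum_spec hchk hσ hn fun i hi => ?_
  have hI : I3 r (24 * y + u) i = bcond (Nat.beq i 0) y (bcond (Nat.beq i 1) (pc r y)
      (bcond (Nat.beq i 2) (pc r (pc r y)) (bcond (Nat.beq i 3) u (pc r u)))) := by
    simp only [I3, hdiv, hmod]
  rw [hI]
  interval_cases i
  · simp only [Nat.beq, bcond_true]
    rw [b0]
  · simp only [Nat.beq, bcond_true, bcond_false]
    rw [b1, hstep 23 0 (by norm_num) h1]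
  · simp only [Nat.beq, bcond_true, bcond_false]
    rw [b2, hstep 0 1 (by norm_num) h2, hstep 23 0 (by norm_num) h1]
  · simp only [Nat.beq, bcond_true, bcond_false]
    rw [b3]
  · simp only [Nat.beq, bcond_false]
    rw [b4, hstep 2 3 (by norm_num) h4]

/-- The test for commuting involutions with a given number of fixed points. -/
noncomputable def invTest (r want : ℕ) (f : ℕ → ℕ) : Bool :=
  !(conjF f (pc r) (pc r)) || !(sqId f) || idF f || Nat.beq (Enc.popAux (fixM f) 24) want

theorem c3a_enum : enumChk 576 (I3 r3a) (tbl120 c3aTbl) (invTest r3a 8) = true := by decide +kernel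
theorem c3b_enum : enumChk 576 (I3 r3b) (tbl120 c3bTbl) (invTest r3b 0) = true := by decide +kernel

theorem invTest_spec {r want : ℕ} (hr : vld r = true) {σ : Equiv.Perm GolayPt} {f : ℕ → ℕ}
    (hf : enc.IsCode σ f) (h : invTest r want f = true) (hc : σ * ppm r = ppm r * σ)
    (h2 : σ * σ = 1) (h1 : σ ≠ 1) : (Finset.univ.filter fun p => σ p = p).card = want := by
  simp only [invTest, Bool.or_eq_true, Bool.not_eq_true'] at h
  have h3 : conjF f (pc r) (pc r) = true := (conjF_iff hf (vld_code hr) (vld_code hr)).2 hc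
  have h4 : sqId f = true := (sqId_iff hf).2 h2
  have h5 : idF f = false := by
    cases h6 : idF f
    · rfl
    · exact absurd ((idF_iff hf).1 h6) h1
  rw [h3, h4, h5] at h
  rw [filter_fix_eq hf, card_enc_finOf]
  rcases h with ((h | h) | h) | h
  · exact Bool.noConfusion h
  · exact Bool.noConfusion h
  · exact Bool.noConfusion h
  · exact Nat.eq_of_beq_eq_true h

theorem r3a_images : pc r3a 23 = 0 ∧ pc r3a 0 = 1 ∧ pc r3a 1 = 23 ∧ pc r3a 2 = 3 := by decide +kernel
theorem r3b_images : pc r3b 23 = 0 ∧ pc r3b 0 = 1 ∧ pc r3b 1 = 23 ∧ pc r3b 2 = 3 := by decide +kernel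

/-- Involutions commuting with the representative of order 3 with fixed points have 8 fixed points. -/
theorem comm_r3a {σ : Equiv.Perm GolayPt} (hσ : σ ∈ M24) (hc : σ * ppm r3a = ppm r3a * σ)
    (h2 : σ * σ = 1) (h1 : σ ≠ 1) : (Finset.univ.filter fun p => σ p = p).card = 8 := by
  obtain ⟨i1, i2, i3, i4⟩ := r3a_images
  obtain ⟨f, hf, hΦ⟩ := centr3 r3a_vld i1 i2 i3 i4 c3a_enum hσ hc
  exact invTest_spec r3a_vld hf hΦ hc h2 h1

/-- Involutions commuting with the representative of order 3 without fixed points have no fixed point. -/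
theorem comm_r3b {σ : Equiv.Perm GolayPt} (hσ : σ ∈ M24) (hc : σ * ppm r3b = ppm r3b * σ)
    (h2 : σ * σ = 1) (h1 : σ ≠ 1) : (Finset.univ.filter fun p => σ p = p).card = 0 := by
  obtain ⟨i1, i2, i3, i4⟩ := r3b_images
  obtain ⟨f, hf, hΦ⟩ := centr3 r3b_vld i1 i2 i3 i4 c3b_enum hσ hc
  exact invTest_spec r3b_vld hf hΦ hc h2 h1

end Cfsg.Agent.Lib.M24
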