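import Cfsg.Agent.Lib.M24.Move
import Cfsg.Agent.Lib.M24.CosetData

/-!
# The invariant subspaces of the permutation module of `M24`
-/

set_option autoImplicit false

namespace Cfsg.Agent.Lib.M24

open Cfsg Cfsg.Agent.Lib.Compute Cfsg.Agent.Lib.Golay
open scoped Pointwise

/-- Transitivity on subsets of size at most 5. -/
theorem exists_smul_eq_of_card' {s t : Finset GolayPt} {k : ℕ} (hk : k ≤ 5) (hs : s.card = k) (ht : t.card = k) :
    ∃ g : ↥M24, g • s = t := by
  have hT := M24_isMultiplyPretransitive k hk
  let x : Fin k ↪ GolayPt := ((Finset.equivFinOfCardEq hs).symm.toEmbedding).trans (Function.Embedding.subtype _)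
  let y : Fin k ↪ GolayPt := ((Finset.equivFinOfCardEq ht).symm.toEmbedding).trans (Function.Embedding.subtype _)
  have hx : ∀ a, a ∈ s ↔ ∃ i, x i = a := by
    intro a
    constructor
    · intro ha
      refine ⟨(Finset.equivFinOfCardEq hs) ⟨a, ha⟩, ?_⟩
      simp [x]
    · rintro ⟨i, rfl⟩
      exact ((Finset.equivFinOfCardEq hs).symm i).2
  have hy : ∀ a, a ∈ t ↔ ∃ i, y i = a := by
    intro a
    constructor
    · intro ha
      refine ⟨(Finset.equivFinOfCardEq ht) ⟨a, ha⟩, ?_⟩
      simp [y]
    · rintro ⟨i, rfl⟩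
      exact ((Finset.equivFinOfCardEq ht).symm i).2
  obtain ⟨g, hg⟩ := MulAction.IsPretransitive.exists_smul_eq (M := M24) x y
  refine ⟨g, ?_⟩
  have hgi : ∀ i, g.1 (x i) = y i := fun i => congrArg (fun e : Fin k ↪ GolayPt => e i) hg
  ext a
  show a ∈ s.image g.1 ↔ a ∈ t
  rw [Finset.mem_image, hy]
  constructor
  · rintro ⟨b, hb, rfl⟩
    obtain ⟨i, rfl⟩ := (hx b).1 hb
    exact ⟨i, (hgi i).symm⟩
  · rintro ⟨i, rfl⟩
    exact ⟨x i, (hx _).2 ⟨i, rfl⟩, hgi i⟩

/-- A coset leader. -/
noncomputable def repT (q : ℕ) : ℕ := pget 24 16777215 repData q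

theorem rep_check : allBelow (fun q => Nat.ble (Enc.popAux (repT q) 24) 4 &&
    Nat.beq (repT q ^^^ word (repT q % 4096)) (q * 4096)) 4096 = true := by
  decide +kernel

theorem wordOf_injOn {a b : ℕ} (ha : a < 2 ^ 24) (hb : b < 2 ^ 24) (h : wordOf a = wordOf b) : a = b := by
  apply enc.finOf_injOn ha hb
  rw [← support_wordOf, ← support_wordOf, h]

/-- Each word is a coset leader plus a word of the code. -/
theorem exists_leader (w : GolayPt → ZMod 2) :
    ∃ l c, Enc.popAux l 24 ≤ 4 ∧ c ∈ golayCode ∧ w = wordOf l + c := by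
  obtain ⟨m, hm, rfl⟩ := exists_wordOf w
  set k := m % 4096 with hk
  have hklt : k < 4096 := Nat.mod_lt _ (by norm_num)
  set m' := m ^^^ word k with hm'
  have hm'lt : m' < 2 ^ 24 := Nat.xor_lt_two_pow hm (word_lt hklt)
  have hmod : m' % 2 ^ 12 = 0 := by
    have h1 : word k % 2 ^ 12 = k := word_mod hklt
    have h2 : m % 2 ^ 12 = k := rfl
    rw [hm', Nat.xor_mod_two_pow, h1, h2, Nat.xor_self]
  obtain ⟨q, hq⟩ := Nat.dvd_of_mod_eq_zero hmod
  have hqlt : q < 4096 := by
    rw [hq] at hm'lt
    norm_num at hm'lt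
    omega
  have hchk := (allBelow_iff _ _).1 rep_check q hqlt
  simp only [Bool.and_eq_true] at hchk
  have h1 : Enc.popAux (repT q) 24 ≤ 4 := Nat.le_of_ble_eq_true hchk.1
  have h2 : repT q ^^^ word (repT q % 4096) = q * 4096 := Nat.eq_of_beq_eq_true hchk.2
  refine ⟨repT q, wordOf (word (repT q % 4096)) + wordOf (word k), h1, add_mem (word_mem _) (word_mem _), ?_⟩
  have h3 : wordOf m = wordOf m' + wordOf (word k) := by
    rw [← wordOf_xor, hm', Nat.xor_assoc, Nat.xor_self, Nat.xor_zero]
  have h4 : m' = q * 4096 := by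
    rw [hq]
    ring
  rw [h3, h4, ← h2, wordOf_xor, add_assoc]

/-- The four base masks. -/
abbrev bm1 : ℕ := 8388608
abbrev bm2 : ℕ := 8388609
abbrev bm3 : ℕ := 8388611
abbrev bm4 : ℕ := 8388615

/-- The check for the stabiliser of a base set. -/
noncomputable def stabChk (gens : List ℕ) (b : ℕ) : Bool :=
  gens.all (fun t => vld t && Nat.beq (imgMask (pc t) b 24) b) &&
  allBelow (fun k => Nat.beq (word k) 0 || Nat.beq (word k) 16777215 ||
    gens.any (fun t => !(Nat.beq (imgMask (pc t) (word k) 24) (word k)) &&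
      !(Nat.beq (imgMask (pc t) (word k) 24) (word k ^^^ 16777215)))) 4096

theorem stab1 : stabChk (baseStab.getD 0 []) bm1 = true := by decide +kernel
theorem stab2 : stabChk (baseStab.getD 1 []) bm2 = true := by decide +kernel
theorem stab3 : stabChk (baseStab.getD 2 []) bm3 = true := by decide +kernel
theorem stab4 : stabChk (baseStab.getD 3 []) bm4 = true := by decide +kernel

theorem allOne_word : allOne = wordOf 16777215 := allOne_eq

/-- The displacement of a word of the code. -/
theorem exists_displace {gens : List ℕ} {b : ℕ} (hchk : stabChk gens b = true) {g : Equiv.Perm GolayPt} (hg : g ∈ M24)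
    {c : GolayPt → ZMod 2} (hc : c ∈ golayCode) (h0 : c ≠ 0) (h1 : c ≠ allOne) :
    ∃ τ ∈ M24, τ • (g • (enc.finOf b : Finset GolayPt)) = g • enc.finOf b ∧ permWord τ c + c ≠ 0 ∧ permWord τ c + c ≠ allOne := by
  simp only [stabChk, Bool.and_eq_true, List.all_eq_true] at hchk
  obtain ⟨hgens, hall⟩ := hchk
  have hc' : permWord g⁻¹ c ∈ golayCode := permWord_mem_of_mem_M24 (M24.inv_mem hg) hc
  obtain ⟨k, hk, hke⟩ := exists_word_of_mem hc'
  have hcg : c = permWord g (wordOf (word k)) := by
    rw [← hke, permWord_inv_self]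
  have hk0 : word k ≠ 0 := by
    intro e
    apply h0
    rw [hcg, e, wordOf_zero]
    rfl
  have hk1 : word k ≠ 16777215 := by
    intro e
    apply h1
    rw [hcg, e, ← allOne_word]
    rfl
  have hk2 := (allBelow_iff _ _).1 hall k hk
  have hne : ∀ {a b : ℕ}, a ≠ b → Nat.beq a b = false := by
    intro a b hab
    rw [← Bool.not_eq_true, Nat.beq_eq]
    exact hab
  rw [hne hk0, hne hk1] at hk2
  simp only [Bool.false_or, List.any_eq_true, Bool.and_eq_true, Bool.not_eq_true'] at hk2
  obtain ⟨t, ht, h5, h6⟩ := hk2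
  obtain ⟨hv, hb⟩ := by
    have := hgens t ht
    simpa only [Bool.and_eq_true] using this
  have hcode := vld_code hv
  have hτ : ppm t ∈ M24 := vld_mem hv
  refine ⟨g * ppm t * g⁻¹, M24.mul_mem (M24.mul_mem hg hτ) (M24.inv_mem hg), ?_, ?_, ?_⟩
  · rw [mul_smul, mul_smul, inv_smul_smul, img_finOf hcode, Nat.eq_of_beq_eq_true hb]
  · have hp : permWord (g * ppm t * g⁻¹) c = permWord g (wordOf (imgMask (pc t) (word k) 24)) := by
      rw [hcg, permWord_mul, permWord_mul, permWord_self_inv, permWord_wordOf hcode]
    intro e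
    have h7 : permWord (g * ppm t * g⁻¹) c = c := by
      have := congrArg (fun z => z + c) e
      simpa [add_assoc, add_self_word] using this
    rw [hp, hcg] at h7
    have h8 := permWord_injective g h7
    have h9 := wordOf_injOn (imgMask_lt (fun i hi => code_lt hcode hi) _ 24 le_rfl) (word_lt hk) h8
    rw [h9] at h5
    rw [Nat.beq_refl] at h5
    exact Bool.noConfusion h5
  · have hp : permWord (g * ppm t * g⁻¹) c = permWord g (wordOf (imgMask (pc t) (word k) 24)) := by
      rw [hcg, permWord_mul, permWord_mul, permWord_self_inv, permWord_wordOf hcode]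
    intro e
    have h7 : permWord (g * ppm t * g⁻¹) c = c + allOne := by
      have := congrArg (fun z => z + c) e
      simp only [add_assoc, add_self_word, add_zero] at this
      rw [this, add_comm]
    have h10 : c + allOne = permWord g (wordOf (word k ^^^ 16777215)) := by
      rw [wordOf_xor, hcg]
      have : permWord g (wordOf (word k) + wordOf 16777215) = permWord g (wordOf (word k)) + permWord g (wordOf 16777215) := rfl
      rw [this, ← allOne_word]
      rfl
    rw [hp, h10] at h7
    have h8 := permWord_injective g h7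
    have hlt : word k ^^^ 16777215 < 2 ^ 24 := Nat.xor_lt_two_pow (word_lt hk) (by norm_num)
    have h9 := wordOf_injOn (imgMask_lt (fun i hi => code_lt hcode hi) _ 24 le_rfl) hlt h8
    rw [h9] at h6
    rw [Nat.beq_refl] at h6
    exact Bool.noConfusion h6

/-- The moves. -/
theorem baseMove_check : (baseMove.getD 0 0, bm1) = (baseMove.getD 0 0, bm1) ∧
    vld (baseMove.getD 0 0) = true ∧ Enc.popAux (imgMask (pc (baseMove.getD 0 0)) bm1 24 ^^^ bm1) 24 = 2 ∧
    vld (baseMove.getD 1 0) = true ∧ Enc.popAux (imgMask (pc (baseMove.getD 1 0)) bm2 24 ^^^ bm2) 24 = 2 ∧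
    vld (baseMove.getD 2 0) = true ∧ Enc.popAux (imgMask (pc (baseMove.getD 2 0)) bm3 24 ^^^ bm3) 24 = 2 ∧
    vld (baseMove.getD 3 0) = true ∧ Enc.popAux (imgMask (pc (baseMove.getD 3 0)) bm4 24 ^^^ bm4) 24 = 2 := by
  decide +kernel

variable {W : Submodule (ZMod 2) (GolayPt → ZMod 2)}

/-- A pair in the subspace from a translate of a base word. -/
theorem pair_of_move (hW : IsInvSub W) {s b : ℕ} (hv : vld s = true) (hp : Enc.popAux (imgMask (pc s) b 24 ^^^ b) 24 = 2)
    {g : Equiv.Perm GolayPt} (hg : g ∈ M24) {e : GolayPt → ZMod 2} (he : ∀ σ : Equiv.Perm GolayPt, permWord σ e = e)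
    (hmem : permWord g (wordOf b) + e ∈ W) : ∃ y ∈ W, (support₂ y).card = 2 := by
  have hσ : g * ppm s * g⁻¹ ∈ M24 := M24.mul_mem (M24.mul_mem hg (vld_mem hv)) (M24.inv_mem hg)
  have h1 := hW _ hσ _ hmem
  have h2 := add_mem h1 hmem
  refine ⟨_, h2, ?_⟩
  have h3 : (fun p => (permWord g (wordOf b) + e) ((g * ppm s * g⁻¹).symm p)) + (permWord g (wordOf b) + e) =
      permWord g (wordOf (imgMask (pc s) b 24 ^^^ b)) := by
    have e1 : (fun p => (permWord g (wordOf b) + e) ((g * ppm s * g⁻¹).symm p)) =
        permWord (g * ppm s * g⁻¹) (permWord g (wordOf b)) + permWord (g * ppm s * g⁻¹) e := rfl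
    rw [e1, he, add_add_add_comm, add_self_word, add_zero, wordOf_xor, ← permWord_wordOf (vld_code hv)]
    have e2 : permWord (g * ppm s * g⁻¹) (permWord g (wordOf b)) = permWord g (permWord (ppm s) (wordOf b)) := by
      rw [permWord_mul, permWord_mul, permWord_self_inv]
    rw [e2]
    rfl
  rw [h3, support_permWord, Finset.card_smul_finset, support_wordOf, card_enc_finOf]
  exact hp

/-- A pair in the subspace gives all pairs, hence all words of even weight. -/
theorem even_of_pair (hW : IsInvSub W) {y : GolayPt → ZMod 2} (hy : y ∈ W) (hc : (support₂ y).card = 2) {x : GolayPt → ZMod 2}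
    (hx : ∑ p, x p = 0) : x ∈ W := by
  classical
  have hpair : ∀ {z : GolayPt → ZMod 2}, (support₂ z).card = 2 → z ∈ W := by
    intro z hz
    obtain ⟨g, hg⟩ := exists_smul_eq_of_card' (k := 2) (by norm_num) hc hz
    exact mem_of_support_image hW g.2 hy hg
  have key : ∀ (n : ℕ) (z : GolayPt → ZMod 2), (support₂ z).card = 2 * n → z ∈ W := by
    intro n
    induction n with
    | zero =>
      intro z hz
      have h0 : z = 0 := by
        apply hammingNorm_eq_zero.1
        exact hz
      rw [h0]
      exact zero_mem _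
    | succ n ih =>
      intro z hz
      obtain ⟨a, ha, b, hb, hab⟩ := Finset.one_lt_card.1 (by rw [hz]; omega : 1 < (support₂ z).card)
      let u : GolayPt → ZMod 2 := fun p => if p = a ∨ p = b then 1 else 0
      have hu : support₂ u = {a, b} := by
        ext p
        rw [mem_support₂]
        simp only [u, Finset.mem_insert, Finset.mem_singleton]
        split_ifs with h
        · simp [h]
        · simp [h]
      have hu2 : (support₂ u).card = 2 := by
        rw [hu, Finset.card_pair hab]
      have hsub : support₂ u ⊆ support₂ z := by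
        rw [hu]
        intro p hp
        simp only [Finset.mem_insert, Finset.mem_singleton] at hp
        rcases hp with rfl | rfl
        · exact ha
        · exact hb
      have hz' : (support₂ (z + u)).card = 2 * n := by
        have h1 := card_symmDiff_add (support₂ z) (support₂ u)
        rw [← support_add, Finset.inter_eq_right.2 hsub, hu2, hz] at h1
        omega
      have h2 := add_mem (ih _ hz') (hpair hu2)
      rw [add_assoc, add_self_word, add_zero] at h2
      exact h2
  have hsum : ((support₂ x).card : ZMod 2) = 0 := by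
    rw [← hx]
    have key2 : ∀ t : ZMod 2, t = if t ≠ 0 then 1 else 0 := by decide
    conv_rhs => rw [Finset.sum_congr rfl fun p _ => key2 (x p)]
    rw [Finset.sum_boole]
    rfl
  have heven : 2 ∣ (support₂ x).card := (ZMod.natCast_eq_zero_iff _ 2).1 hsum
  obtain ⟨n, hn⟩ := heven
  exact key n x hn

/-- Every word outside the code in an invariant subspace yields a pair. -/
theorem pair_of_outside (hW : IsInvSub W) {w : GolayPt → ZMod 2} (hw : w ∈ W) (hnot : w ∉ golayCode) :
    ∃ y ∈ W, (support₂ y).card = 2 := by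
  obtain ⟨l, c, hl, hc, rfl⟩ := exists_leader w
  have hl0 : Enc.popAux l 24 ≠ 0 := by
    intro h
    apply hnot
    have h1 : support₂ (wordOf l) = ∅ := by
      rw [support_wordOf, ← Finset.card_eq_zero, card_enc_finOf, h]
    have h2 : wordOf l = 0 := by
      apply hammingNorm_eq_zero.1
      rw [hammingNorm_eq, h1]
      rfl
    rw [h2, zero_add]
    exact hc
  -- the general step for a base
  have main : ∀ {gens : List ℕ} {b s : ℕ}, stabChk gens b = true → vld s = true →
      Enc.popAux (imgMask (pc s) b 24 ^^^ b) 24 = 2 → Enc.popAux b 24 = Enc.popAux l 24 → Enc.popAux l 24 ≤ 5 →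
      ∃ y ∈ W, (support₂ y).card = 2 := by
    intro gens b s hchk hv hp hb hle
    obtain ⟨g, hg⟩ := exists_smul_eq_of_card' (s := enc.finOf b) (t := enc.finOf l) (k := Enc.popAux l 24) hle
      (by rw [card_enc_finOf, hb]) (by rw [card_enc_finOf])
    have hg' : permWord g.1 (wordOf b) = wordOf l := by
      apply support_inj
      rw [support_permWord, support_wordOf, support_wordOf]
      exact hg
    have hcases : c = 0 ∨ c = allOne ∨ (c ≠ 0 ∧ c ≠ allOne) := by
      by_cases h0 : c = 0
      · exact Or.inl h0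
      · by_cases h1 : c = allOne
        · exact Or.inr (Or.inl h1)
        · exact Or.inr (Or.inr ⟨h0, h1⟩)
    rcases hcases with h0 | h1 | ⟨h0, h1⟩
    · refine pair_of_move hW hv hp g.2 (e := 0) (fun σ => rfl) ?_
      rw [hg', add_zero]
      rw [h0, add_zero] at hw
      exact hw
    · refine pair_of_move hW hv hp g.2 (e := allOne) (fun σ => rfl) ?_
      rw [hg']
      rw [h1] at hw
      exact hw
    · obtain ⟨τ, hτ, hτb, h2, h3⟩ := exists_displace hchk g.2 hc h0 h1
      have hτl : permWord τ (wordOf l) = wordOf l := by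
        apply support_inj
        rw [support_permWord, support_wordOf]
        have : g.1 • (enc.finOf b : Finset GolayPt) = enc.finOf l := hg
        rw [this] at hτb
        exact hτb
      have hdisp : permWord τ c + c ∈ W := by
        have h4 := add_mem (hW τ hτ _ hw) hw
        have e1 : (fun p => (wordOf l + c) (τ.symm p)) + (wordOf l + c) = permWord τ c + c := by
          have e2 : (fun p => (wordOf l + c) (τ.symm p)) = permWord τ (wordOf l) + permWord τ c := rfl
          rw [e2, hτl, add_add_add_comm, add_self_word, zero_add]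
        rwa [e1] at h4
      have hle' : golayCode ≤ W :=
        code_le_of_mem hW hdisp (add_mem (permWord_mem_of_mem_M24 hτ hc) hc) h2 h3
      refine pair_of_move hW hv hp g.2 (e := 0) (fun σ => rfl) ?_
      rw [hg', add_zero]
      have h5 := add_mem hw (hle' hc)
      rwa [add_assoc, add_self_word, add_zero] at h5
  obtain ⟨_, v1, p1, v2, p2, v3, p3, v4, p4⟩ := baseMove_check
  have hcases : Enc.popAux l 24 = 1 ∨ Enc.popAux l 24 = 2 ∨ Enc.popAux l 24 = 3 ∨ Enc.popAux l 24 = 4 := by omega
  rcases hcases with h | h | h | h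
  · exact main stab1 v1 p1 (by rw [h]; decide +kernel) (by omega)
  · exact main stab2 v2 p2 (by rw [h]; decide +kernel) (by omega)
  · exact main stab3 v3 p3 (by rw [h]; decide +kernel) (by omega)
  · exact main stab4 v4 p4 (by rw [h]; decide +kernel) (by omega)

/-- The classification of invariant subspaces. -/
theorem invariant_classify (hW : IsInvSub W) : W = ⊥ ∨ W = Submodule.span (ZMod 2) {allOne} ∨ W = golayCode ∨
    (W : Set (GolayPt → ZMod 2)) = {w | ∑ p, w p = 0} ∨ W = ⊤ := by
  by_cases hle : W ≤ golayCode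
  · by_cases hex : ∃ c ∈ W, c ≠ 0 ∧ c ≠ allOne
    · obtain ⟨c, hc, h0, h2⟩ := hex
      exact Or.inr (Or.inr (Or.inl (le_antisymm hle (code_le_of_mem hW hc (hle hc) h0 h2))))
    · push Not at hex
      by_cases h1 : allOne ∈ W
      · right
        left
        apply le_antisymm
        · intro x hx
          rw [mem_span_allOne]
          by_cases hx0 : x = 0
          · exact Or.inl hx0
          · exact Or.inr (hex x hx hx0)
        · rw [Submodule.span_singleton_le_iff_mem]
          exact h1
      · left
        rw [Submodule.eq_bot_iff]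
        intro x hx
        by_contra hx0
        exact h1 (hex x hx hx0 ▸ hx)
  · obtain ⟨w, hw, hnot⟩ := SetLike.not_le_iff_exists.1 hle
    obtain ⟨y, hy, hc⟩ := pair_of_outside hW hw hnot
    have heven : ∀ {x : GolayPt → ZMod 2}, ∑ p, x p = 0 → x ∈ W := fun hx => even_of_pair hW hy hc hx
    by_cases hall : ∀ x ∈ W, ∑ p, x p = 0
    · right
      right
      right
      left
      ext x
      exact ⟨fun hx => hall x hx, fun hx => heven hx⟩
    · right
      right
      right
      right
      push Not at hall
      obtain ⟨z, hz, hz1⟩ := hall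
      rw [eq_top_iff]
      intro x _
      by_cases hx : ∑ p, x p = 0
      · exact heven hx
      · have key : ∀ s t : ZMod 2, s ≠ 0 → t ≠ 0 → s + t = 0 := by decide
        have h2 : ∑ p, (x + z) p = 0 := by
          have h0 : ∑ p, (x + z) p = ∑ p, x p + ∑ p, z p := Finset.sum_add_distrib
          rw [h0]
          exact key _ _ hx hz1
        have h3 := add_mem (heven h2) hz
        rwa [add_assoc, add_self_word, add_zero] at h3

end Cfsg.Agent.Lib.M24
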