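import Cfsg.Agent.Lib.M24.Three
import Cfsg.Agent.Lib.M24.Tables

/-!
# Numbers of octads, trios, sextets, dodecads fixed by the representative involutions and elements of order 3
-/

set_option autoImplicit false

namespace Cfsg.Agent.Lib.M24

open Cfsg Cfsg.Agent.Lib.Compute Cfsg.Agent.Lib.Golay
open scoped Pointwise

theorem c2a_oct : countBelow (wordFix (pc r2a) 8) 4096 = 71 := by decide +kernel
theorem c2a_tr : countBelow (fun k => famFix (pc r2a) (trT k) 3) 3795 = 99 := by decide +kernel
theorem c2a_sx : countBelow (fun k => famFix (pc r2a) (sxT k) 6) 1771 = 91 := by decide +kernel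
theorem c2b_oct : countBelow (wordFix (pc r2b) 8) 4096 = 15 := by decide +kernel
theorem c2b_tr : countBelow (fun k => famFix (pc r2b) (trT k) 3) 3795 = 75 := by decide +kernel
theorem c2b_sx : countBelow (fun k => famFix (pc r2b) (sxT k) 6) 1771 = 51 := by decide +kernel
theorem c3a_oct : countBelow (wordFix (pc r3a) 8) 4096 = 21 := by decide +kernel
theorem c3a_dd : countBelow (wordFix (pc r3a) 12) 4096 = 20 := by decide +kernel
theorem c3a_tr : countBelow (fun k => famFix (pc r3a) (trT k) 3) 3795 = 15 := by decide +kernel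
theorem c3a_sx : countBelow (fun k => famFix (pc r3a) (sxT k) 6) 1771 = 16 := by decide +kernel
theorem c3b_tr : countBelow (fun k => famFix (pc r3b) (trT k) 3) 3795 = 15 := by decide +kernel
theorem c3b_sx : countBelow (fun k => famFix (pc r3b) (sxT k) 6) 1771 = 7 := by decide +kernel

/-- Transport of the four counts along a conjugation. -/
theorem octads_fixed_conj {g k τ : Equiv.Perm GolayPt} (hk : k ∈ M24) (h : k * g * k⁻¹ = τ) :
    {o | o ∈ octads ∧ g • o = o}.ncard = {o | o ∈ octads ∧ τ • o = o}.ncard := by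
  subst h
  exact (ncard_fixed_conj (A := octads) (fun _ hk _ hx => smul_mem_octads hk hx) hk g).symm

theorem dodecads_fixed_conj {g k τ : Equiv.Perm GolayPt} (hk : k ∈ M24) (h : k * g * k⁻¹ = τ) :
    {o | o ∈ dodecads ∧ g • o = o}.ncard = {o | o ∈ dodecads ∧ τ • o = o}.ncard := by
  subst h
  exact (ncard_fixed_conj (A := dodecads) (fun _ hk _ hx => smul_mem_dodecads hk hx) hk g).symm

theorem sextets_fixed_conj {g k τ : Equiv.Perm GolayPt} (hk : k ∈ M24) (h : k * g * k⁻¹ = τ) :
    {o | o ∈ sextets ∧ g • o = o}.ncard = {o | o ∈ sextets ∧ τ • o = o}.ncard := by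
  subst h
  exact (ncard_fixed_conj (A := sextets) (fun _ hk _ hx => smul_mem_sextets hk hx) hk g).symm

theorem trios_fixed_conj {g k τ : Equiv.Perm GolayPt} (hk : k ∈ M24) (h : k * g * k⁻¹ = τ) :
    {o | o ∈ trios ∧ g • o = o}.ncard = {o | o ∈ trios ∧ τ • o = o}.ncard := by
  subst h
  exact (ncard_fixed_conj (A := trios) (fun _ hk _ hx => smul_mem_trios hk hx) hk g).symm

end Cfsg.Agent.Lib.M24
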