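import Mathlib

/-!
# Data: the centraliser of an involution of the stabiliser of a dodecad and a point
-/

namespace Cfsg.Agent.Lib.M24

/-- The base involution. -/
def czY : ℕ := 648333173198446926654847902756766784

/-- The rows. -/
def czL : ℕ := 384472273245891399416686101372209582985318119208072003825845749125021384879826799104060661720338851423467997724416262389894904539207387253444133550965232033970275147903386723639315726368792449076121959539531138969531707590357600293562485113376023744138158209474003886945092800237230255116991532590207570737436914549267640290107637480677094406553234823217803936840200357508329857176613828244717939467816999397306922828102575554409167382892251644086475640535776920072341409063616874679278212398503467478871824156205608273106886094390712312453148795061265215395318794221598652404643193801677193411890210401184312993282478979619202319782388411607171620498896683193504769738489100475966915893032028054151301893794277387132835608193371787040114091129871338697393618368615219274798043618002141713069015265732734697485326114357447092059016147827553767682373804933151567354802768982853482272473194381983249383607323523453101774267952153445845925656207063488980618951565083356007148457928062390172206892191895198528757249827606539614021805980900220556787052077467356046122039696968571624095776428453433891636023373662153531576394553471742809872086672171952094726468902229908943753018518673666595662069433475803120346425176116306187367884788811338075933003947377913621426282693249063171687170337325409844768880384711062297639889759997433616066717224719233579159799630798589480559382202435219227009427757897502524335318412852315156275498567427424828140906887573888211689085104443183660687653323667573937900978665296129449890249292724733619547829733079873016894875617955797446776387687432786440914021155247320246295882181040942770513800492203702214634734143056030889753796752131180581846066839962629886375101827862876693005442874149387679214668928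

/-- Right multiplication by the generators. -/
def czR : ℕ := 42790520871281303423816399790730136237780463753844510710012602108926320816143337966037577933567320437389654079031416532561934359441501649628204356309554643487293856230242734

/-- Parents. -/
def czPar : ℕ := 62238223523574953895983982419731558791191085186058890126195261919033323887614629513293

/-- Generators. -/
def czGen : ℕ := 101932285239004298475471876

/-- Distances. -/
def czDist : ℕ := 16148137975787999868349848143672595809918501

/-- The matrices of the rows. -/
def czPsi : ℕ := 25917852568309121280126203744630493824017599077637173181739776979525403865887726336999366738223110065682372567851425

end Cfsg.Agent.Lib.M24
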