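import Cfsg.Agent.Lib.M24.Dd

/-!
# The stabiliser of a complementary pair of dodecads is maximal
-/

set_option autoImplicit false
set_option linter.constructorNameAsVariable false

namespace Cfsg.Agent.Lib.M24

open Cfsg Cfsg.Agent.Lib.Compute Cfsg.Agent.Lib.Golay
open scoped Pointwise

theorem finOf_compl (m : ℕ) : (enc.finOf (m ^^^ 16777215) : Finset GolayPt) = (enc.finOf m)ᶜ := by
  ext x
  have h1 : (16777215 : ℕ) = 2 ^ 24 - 1 := by norm_num
  have h2 : idx x < 24 := idx_lt x
  simp only [Enc.mem_finOf, Finset.mem_compl, Nat.testBit_xor, enc_idx]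
  rw [h1, Nat.testBit_two_pow_sub_one]
  simp [h2]

theorem zd_compl : allBelow (fun k => Nat.beq (Nat.xor (zdT k) 16777215) (zdT (Nat.sub 2575 k))) 2576 = true := by
  decide +kernel

theorem zd_compl' {k : ℕ} (hk : k < 2576) : (enc.finOf (zdT (2575 - k)) : Finset GolayPt) = (enc.finOf (zdT k))ᶜ := by
  rw [← finOf_compl]
  have h := Nat.eq_of_beq_eq_true ((allBelow_iff _ _).1 zd_compl k hk)
  exact congrArg _ h.symm

/-- The table of pairs. -/
noncomputable def dpP (k j : ℕ) : ℕ := bcond (Nat.beq j 0) (zdT k) (zdT (Nat.sub 2575 k))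

theorem famOf_dpP (k : ℕ) : famOf (dpP k) 2 = {enc.finOf (zdT k), enc.finOf (zdT (2575 - k))} := famOf_two _

/-- The complementary pairs of dodecads. -/
def dpairs : Set (Finset (Finset GolayPt)) := {P | ∃ d ∈ dodecads, P = {d, dᶜ}}

theorem smul_compl_pair (g : ↥M24) (d : Finset GolayPt) :
    g • ({d, dᶜ} : Finset (Finset GolayPt)) = {g • d, (g • d)ᶜ} := by
  show g.1 • ({d, dᶜ} : Finset (Finset GolayPt)) = {g.1 • d, (g.1 • d)ᶜ}
  rw [Finset.smul_finset_insert, Finset.smul_finset_singleton, Finset.compl_eq_univ_sdiff, Finset.compl_eq_univ_sdiff,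
    Finset.smul_finset_sdiff, Finset.smul_finset_univ]

theorem famOf_dpP_card {k : ℕ} (hk : k < 1288) : (famOf (dpP k) 2).card = 2 := by
  rw [famOf_dpP, Finset.card_pair]
  intro h
  have := zd_injOn (a := k) (b := 2575 - k) (by omega) (by omega) h
  omega

/-- The table of pairs. -/
theorem dpTable : ZTable (Z := Finset (Finset GolayPt)) dpairs (fun k => famOf (dpP k) 2) 1288 id dpP 2 where
  mem_iff := by
    intro y
    constructor
    · rintro ⟨d, hd, rfl⟩
      obtain ⟨j, hj, rfl⟩ := mem_dodecads_table.1 hd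
      by_cases h : j < 1288
      · refine ⟨j, h, ?_⟩
        rw [famOf_dpP, zd_compl' hj]
      · refine ⟨2575 - j, by omega, ?_⟩
        rw [famOf_dpP, zd_compl' hj]
        rw [show 2575 - (2575 - j) = j by omega]
        exact Finset.pair_comm _ _
    · rintro ⟨k, hk, rfl⟩
      refine ⟨enc.finOf (zdT k), zd_mem (by omega), ?_⟩
      rw [famOf_dpP, zd_compl' (by omega)]
  inv_A := by
    rintro σ y ⟨d, hd, rfl⟩
    exact ⟨σ • d, smul_mem_dodecads σ.2 hd, smul_compl_pair σ d⟩
  inj := by
    intro a b ha hb h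
    rw [famOf_dpP, famOf_dpP] at h
    have h1 : (enc.finOf (zdT a) : Finset GolayPt) ∈ ({enc.finOf (zdT b), enc.finOf (zdT (2575 - b))} : Finset (Finset GolayPt)) := by
      rw [← h]
      simp
    simp only [Finset.mem_insert, Finset.mem_singleton] at h1
    rcases h1 with h1 | h1
    · exact zd_injOn (by omega) (by omega) h1
    · have := zd_injOn (a := a) (b := 2575 - b) (by omega) (by omega) h1
      omega
  Ψ_smul := fun _ _ => rfl
  Ψ_zt := fun _ _ => rfl
  card := fun _ hk => famOf_dpP_card hk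
  act := by
    intro σ f hf k k' hk h
    have hk'card : (famOf (dpP k') 2).card ≤ (famOf (dpP k) 2).card := by
      rw [famOf_dpP_card hk]
      exact Finset.card_image_le.trans (by simp)
    exact famEq_spec hf h hk'card

theorem dpM_chk : descChk gD 1288 (fun f k k' => famEq f (dpP k) (dpP k') 2) [0, 1, 13]
    (pget 11 2047 zdpPar) (pget 2 3 zdpGen) (pget 3 7 zdpDist) = true := by
  decide +kernel

theorem dpM_nodup : (List.map (tblInv dpT 2 dpP 2) [0, 1, 13]).Nodup := by decide +kernel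

theorem dpM_count1 : countBelow (fun k => Nat.beq (tblInv dpT 2 dpP 2 k) (tblInv dpT 2 dpP 2 0)) 1288 = 1 := by decide +kernel
theorem dpM_count2 : countBelow (fun k => Nat.beq (tblInv dpT 2 dpP 2 k) (tblInv dpT 2 dpP 2 1)) 1288 = 495 := by decide +kernel
theorem dpM_count3 : countBelow (fun k => Nat.beq (tblInv dpT 2 dpP 2 k) (tblInv dpT 2 dpP 2 13)) 1288 = 792 := by decide +kernel

theorem dpair_decomp0 : OrbDecomp3 (G := ↥M24) (famOf dpT 2) dpairs 1 495 792 :=
  cert3 dpTable dpBase (gens_of_fix dpBase Function.injective_id dSex_fix) dpM_chk (by norm_num) (by norm_num) (by norm_num) dpM_nodup dpM_count1 dpM_count2 dpM_count3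

theorem dpT0_mem : (enc.finOf (dpT 0) : Finset GolayPt) ∈ dodecads := by
  rw [show dpT 0 = Dz by decide +kernel]
  exact Dz_mem

theorem dpT_eq : famOf dpT 2 = ({enc.finOf (dpT 0), (enc.finOf (dpT 0))ᶜ} : Finset (Finset GolayPt)) := by
  rw [famOf_two, ← finOf_compl]
  rw [show dpT 1 = dpT 0 ^^^ 16777215 by decide +kernel]

/-- The setwise stabiliser of a dodecad and its complement is a maximal subgroup. -/
theorem dpair_coatom {d : Finset GolayPt} (hd : d ∈ dodecads) :
    IsCoatom (MulAction.stabilizer ↥M24 ({d, dᶜ} : Finset (Finset GolayPt))) := by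
  obtain ⟨g, rfl⟩ := dodecads_transitive dpT0_mem hd
  have hinv : ∀ (σ : ↥M24), ∀ x ∈ dpairs, σ • x ∈ dpairs := fun σ x hx => dpTable.inv_A σ x hx
  have h := dpair_decomp0.smul hinv g
  rw [dpT_eq, smul_compl_pair] at h
  have hA : MulAction.orbit ↥M24 ({g • enc.finOf (dpT 0), (g • enc.finOf (dpT 0))ᶜ} : Finset (Finset GolayPt)) = dpairs := by
    ext y
    constructor
    · rintro ⟨u, rfl⟩
      exact hinv u _ ⟨_, hd, rfl⟩
    · rintro ⟨d', hd', rfl⟩
      obtain ⟨u, hu⟩ := dodecads_transitive hd hd'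
      refine ⟨u, ?_⟩
      show u • _ = _
      rw [smul_compl_pair, hu]
  rw [← hA] at h
  exact coatom_of_decomp3 h (by norm_num) (by norm_num) (by norm_num) (by decide +kernel) (by norm_num)

end Cfsg.Agent.Lib.M24
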