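import Mathlib

/-!
# The action of the stabiliser of a finite set on the set
-/

set_option autoImplicit false

namespace Cfsg.Agent.Lib.M24

open MulAction
open scoped Pointwise

section general

variable {G X : Type*} [Group G] [MulAction G X] [DecidableEq X]

theorem smul_mem_iff_of_stab {S : Finset X} {x : G} (hx : x • S = S) (t : X) : x • t ∈ S ↔ t ∈ S := by
  conv_lhs => rw [← hx]
  exact Finset.smul_mem_smul_finset_iff x

/-- The action of the stabiliser of a finite set on its members. -/
def famRes (S : Finset X) : ↥(stabilizer G S) →* Equiv.Perm ↥S where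
  toFun x := (MulAction.toPerm (x : G)).subtypePerm (fun t => smul_mem_iff_of_stab x.2 t)
  map_one' := Equiv.ext fun t => Subtype.ext (one_smul G t.1)
  map_mul' a b := Equiv.ext fun t => Subtype.ext (mul_smul (a : G) (b : G) t.1)

theorem famRes_apply (S : Finset X) (x : ↥(stabilizer G S)) (t : ↥S) : (famRes S x t : X) = (x : G) • (t : X) := rfl

theorem mem_famRes_ker {S : Finset X} {x : ↥(stabilizer G S)} : x ∈ (famRes S).ker ↔ ∀ t ∈ S, (x : G) • t = t := by
  rw [MonoidHom.mem_ker]
  constructor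
  · intro h t ht
    have h2 := congrArg (fun e : Equiv.Perm ↥S => ((e ⟨t, ht⟩ : ↥S) : X)) h
    exact h2
  · intro h
    exact Equiv.ext fun t => Subtype.ext (h t.1 t.2)

/-- Surjectivity of the action is transported along the group. -/
theorem famRes_surj_smul (g : G) {S : Finset X} (h : Function.Surjective (famRes (G := G) S)) :
    Function.Surjective (famRes (G := G) (g • S)) := by
  intro e
  let b : ↥S ≃ ↥(g • S) :=
    { toFun := fun t => ⟨g • t.1, Finset.smul_mem_smul_finset_iff g |>.2 t.2⟩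
      invFun := fun u => ⟨g⁻¹ • u.1, by
        have h1 := Finset.smul_mem_smul_finset_iff (s := S) (b := g⁻¹ • u.1) g
        rw [smul_inv_smul] at h1
        exact h1.1 u.2⟩
      left_inv := fun t => Subtype.ext (inv_smul_smul g t.1)
      right_inv := fun u => Subtype.ext (smul_inv_smul g u.1) }
  obtain ⟨x', hx'⟩ := h ((b.trans e).trans b.symm)
  have hstab : g * (x' : G) * g⁻¹ ∈ stabilizer G (g • S) := by
    show (g * (x' : G) * g⁻¹) • g • S = g • S
    have h2 : (x' : G) • S = S := x'.2
    rw [mul_smul, mul_smul, inv_smul_smul, h2]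
  refine ⟨⟨_, hstab⟩, ?_⟩
  refine Equiv.ext fun u => Subtype.ext ?_
  rw [famRes_apply]
  show (g * (x' : G) * g⁻¹) • u.1 = _
  have h3 := congrArg (fun f : Equiv.Perm ↥S => ((f (b.symm u) : ↥S) : X)) hx'
  have h4 : (x' : G) • (g⁻¹ • u.1) = g⁻¹ • (e u).1 := by
    have h5 : ((famRes S x' (b.symm u) : ↥S) : X) = (x' : G) • (g⁻¹ • u.1) := rfl
    rw [← h5, h3]
    show g⁻¹ • (e (b (b.symm u))).1 = _
    rw [b.apply_symm_apply]
  rw [mul_smul, mul_smul, h4, smul_inv_smul]

/-- The order of the kernel of a surjective action. -/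
theorem card_ker_of_surj {S : Finset X} [Finite ↥(stabilizer G S)] (h : Function.Surjective (famRes (G := G) S)) :
    Nat.card ↥(stabilizer G S) = Nat.card (famRes (G := G) S).ker * Nat.card (Equiv.Perm ↥S) := by
  rw [(famRes (G := G) S).ker.card_eq_card_quotient_mul_card_subgroup,
    Nat.card_congr (QuotientGroup.quotientKerEquivOfSurjective _ h).toEquiv, mul_comm]

/-- A normal subgroup of exponent two of a stabiliser is transported along the group. -/
theorem exists_normal_smul {Y : Type*} [MulAction G Y] (g : G) (x : Y) {n : ℕ}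
    (h : ∃ N : Subgroup ↥(stabilizer G x), N.Normal ∧ Nat.card N = n ∧ ∀ y ∈ N, y * y = 1) :
    ∃ N : Subgroup ↥(stabilizer G (g • x)), N.Normal ∧ Nat.card N = n ∧ ∀ y ∈ N, y * y = 1 := by
  obtain ⟨N, hn, hc, hy⟩ := h
  let c : ↥(stabilizer G x) ≃* ↥(stabilizer G (g • x)) := stabilizerEquivStabilizer rfl
  refine ⟨N.map c.toMonoidHom, hn.map _ c.surjective, ?_, ?_⟩
  · rw [← hc]
    exact Nat.card_congr (N.equivMapOfInjective c.toMonoidHom c.injective).toEquiv.symm
  · rintro _ ⟨y, hyN, rfl⟩
    show c y * c y = 1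
    rw [← map_mul, hy y hyN, map_one]

/-- A normal subgroup with a given quotient is transported along the group. -/
theorem exists_quot_smul {Y Q : Type*} [MulAction G Y] [Group Q] (g : G) (x : Y) {n : ℕ}
    (h : ∃ (N : Subgroup ↥(stabilizer G x)) (_ : N.Normal), Nat.card N = n ∧ (∀ y ∈ N, y * y = 1) ∧
      Nonempty (↥(stabilizer G x) ⧸ N ≃* Q)) :
    ∃ (N : Subgroup ↥(stabilizer G (g • x))) (_ : N.Normal), Nat.card N = n ∧ (∀ y ∈ N, y * y = 1) ∧
      Nonempty (↥(stabilizer G (g • x)) ⧸ N ≃* Q) := by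
  obtain ⟨N, hn, hc, hy, ⟨e⟩⟩ := h
  let c : ↥(stabilizer G x) ≃* ↥(stabilizer G (g • x)) := stabilizerEquivStabilizer rfl
  have hN : (N.map c.toMonoidHom).Normal := hn.map _ c.surjective
  refine ⟨N.map c.toMonoidHom, hN, ?_, ?_, ?_⟩
  · rw [← hc]
    exact Nat.card_congr (N.equivMapOfInjective c.toMonoidHom c.injective).toEquiv.symm
  · rintro _ ⟨y, hyN, rfl⟩
    show c y * c y = 1
    rw [← map_mul, hy y hyN, map_one]
  · exact ⟨(QuotientGroup.congr N (N.map c.toMonoidHom) c rfl).symm.trans e⟩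

end general

end Cfsg.Agent.Lib.M24
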