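import Mathlib

/-!
# Data on `M22`
-/

namespace Cfsg.Agent.Lib.M24

/-- Elements of `M22` with exactly three fixed points, the third one being `y` (for `1 ≤ y ≤ 22`, at place `y-1`). -/
def m22X : List ℕ := [960105222645620915582172302997562400, 957142382810070874623888852821641376, 962162693822376304478023716316480832, 958601687717557640806423656416153248, 980465673320065730353004449909265984, 966078193048058640069600108675123584, 977872236891490263809279757171971168, 969020214603939463682082679757100608, 981430627336725521418737493885798752, 978838027066782232915661834695414176, 974336156486668596397281956649571872, 972322883249266599417155063684679904, 958877773920840745159672464315882592, 967683164821871485035170867791975616, 966546868396564655330241741129583968, 963996908722672110651615912295769408, 975346403804511255688103935102962976, 968609667786041225432024004804482144, 969081633798787276533000126029114656, 962791234467355364598357716581516512, 961433601722780144200802215763690560, 984714324040258504315250166487984320]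
/-- An element moving the seven base points off the two points fixed by `M22`. -/
def m22C : ℕ := 196137939796002638476974742846086352

end Cfsg.Agent.Lib.M24
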