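import Mathlib

/-!
# The elements of the group `M9`
-/

namespace Cfsg.Agent.Lib.M24

/-- The elements of the stabiliser of the base dodecad fixing the points `0, 1, 2`. -/
def m9L : List ℕ := [984818244535754528103549039458486304, 486349973926430203268823274221996064, 928952864966028496604741530750814240, 970499966350631336865513127433832480, 944293816565412651426207388111472672, 487373122709212905255923294881187872, 858988336336270505570052787752405024, 607974513007959930786473204517505056, 849862808090484735685470734032308256, 609744425604512129277147896769742880, 891385682027558266148352467872712736, 898742143189044893377746329054414880, 899214583888558003150069357295700000, 849414919297944031155053626894092320, 608460305594945736333983948957190176, 609718671646466476278175549440296992, 890954976140709938678640932563453984, 858934107515357207598970770041374752, 809399594410595785774724965859756064, 629863500390412654982178157189269536, 648154481660236051385864952584734752, 232783362388564428185213343297439776, 227866200190482962309748417481934880, 796025918939784314627536738561984544, 425085878865583144827023905643726880, 719923664328491199848526586197411872, 313063593285160742836699179059316768, 715872302521680643580706198532491296, 304527279934878073638008567181674528, 437673696385666828435562741295908896, 486073779993727295785104656607348768, 929000492124499343650182431580424224, 970531819526550031117983620406741024, 487607080158395075740321133224921120, 984534996141977609297800625156032544, 944538627742660781242037951888164896, 849887890532701421127722391426172960,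 608405391266436187982588441666881568, 891440084380668137666183104591693856, 858502712789113075489201924125100064, 609271311764373893382231684089481248, 899189355044933402820830013086107680, 928718206277989008510816407558424608, 944569772236290697579231267829188640, 487655643029606470073469406179395616, 486317894067777385906476470720956448, 984769902586367543974814854303385632, 970254902120350598020240965873371168, 424698032726113400716592269113985056, 304382488815307602047787978285647904, 438228640608320839931147656307705888, 715461294005770680473893921775552544, 313626468097149398198142802389895200, 719748774308089385568610015441717280, 303972014349329906305369256209090592, 313451266620471430272303061907212320, 425260589770023667920228681599158304, 716016777081418520089506884598499360, 719360590536681843314903822610073632, 438084364835391119001047119775926304, 648441755269428208718993426702993440, 233054687951835244750033064009402400, 227468939079694360949178429167896608, 796134455581813252778404696041064480, 629994123837064240816195434993748000, 808997782816701570676445371466909728, 796422664143520048046740322637776928, 809127892823755776035426641505355808, 630264916018297267747726081680246816, 227578386318009578406903204956702752, 648045425277649902928402440926824480, 232652365823391711183829569059784736]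

end Cfsg.Agent.Lib.M24
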