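import Cfsg.Agent.Lib.M24.Sym6
import Cfsg.Agent.Lib.M24.Enum
import Cfsg.Agent.Lib.M24.M9Data
import Cfsg.Agent.Lib.Cl.CycNormal

/-!
# The group `M9`: the stabiliser in `M12` of three points
-/

set_option autoImplicit false

namespace Cfsg.Agent.Lib.M24

open Cfsg Cfsg.Agent.Lib.Compute Cfsg.Agent.Lib.Golay
open scoped Pointwise

/-! ### Recognition -/

theorem q8_of_unique_invol {P : Type*} [Group P] [Finite P] (hc : Nat.card P = 8) (h4 : ∀ x : P, x ^ 4 = 1)
    (hu : ∀ s t : P, s ^ 2 = 1 → t ^ 2 = 1 → s ≠ 1 → t ≠ 1 → s = t) : Nonempty (P ≃* QuaternionGroup 2) := by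
  classical
  have : Fact (Nat.Prime 2) := ⟨Nat.prime_two⟩
  obtain ⟨z, hz⟩ := exists_prime_orderOf_dvd_card' (G := P) 2 (by rw [hc]; norm_num)
  have hz2 : z ^ 2 = 1 := by rw [← hz]; exact pow_orderOf_eq_one z
  have hz1 : z ≠ 1 := by
    rintro rfl
    simp at hz
  have key : ∀ x : P, x ≠ 1 → x ≠ z → x ^ 2 = z := by
    intro x hx1 hxz
    refine hu _ _ ?_ hz2 ?_ hz1
    · rw [← pow_mul]
      exact h4 x
    · intro h
      exact hxz (hu x z h hz2 hx1 hz1)
  obtain ⟨a, ha1, haz⟩ : ∃ a : P, a ≠ 1 ∧ a ≠ z := by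
    by_contra hcon
    push Not at hcon
    have := Fintype.ofFinite P
    have h1 : (Finset.univ : Finset P) ⊆ {1, z} := by
      intro y _
      by_cases hy : y = 1
      · simp [hy]
      · simp [hcon y hy]
    have h2 := Finset.card_le_card h1
    have h3 : ({1, z} : Finset P).card ≤ 2 := Finset.card_le_two
    rw [Finset.card_univ, ← Nat.card_eq_fintype_card, hc] at h2
    omega
  have ha2 : a ^ 2 = z := key a ha1 haz
  have hord : orderOf a = 2 ^ 2 := by
    apply orderOf_eq_prime_pow (p := 2) (n := 1)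
    · rw [pow_one, ha2]
      exact hz1
    · exact h4 a
  obtain ⟨x, hx⟩ : ∃ x, x ∉ Subgroup.zpowers a := by
    by_contra hcon
    push Not at hcon
    have h1 : Subgroup.zpowers a = ⊤ := (Subgroup.eq_top_iff' _).2 hcon
    have h2 := Nat.card_zpowers a
    rw [h1, Subgroup.card_top, hc, hord] at h2
    omega
  have hzm : z ∈ Subgroup.zpowers a := by
    rw [← ha2]
    exact Subgroup.npow_mem_zpowers a 2
  have hx1 : x ≠ 1 := fun e => hx (e ▸ Subgroup.one_mem _)
  have hxz : x ≠ z := fun e => hx (e ▸ hzm)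
  have hx2 : x ^ 2 = z := key x hx1 hxz
  have hax : a * x ∉ Subgroup.zpowers a := fun h => hx (by
    have := Subgroup.mul_mem _ (Subgroup.inv_mem _ (Subgroup.mem_zpowers a)) h
    simpa using this)
  have hax1 : a * x ≠ 1 := fun e => hax (e ▸ Subgroup.one_mem _)
  have haxz : a * x ≠ z := fun e => hax (e ▸ hzm)
  have hax2 : (a * x) ^ 2 = z := key _ hax1 haxz
  have hrel : x * a * x = a := by
    have h1 : a * (x * a * x) = a * a := by
      calc a * (x * a * x) = (a * x) ^ 2 := by rw [pow_two]; group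
        _ = a ^ 2 := by rw [hax2, ha2]
        _ = a * a := pow_two a
    exact mul_left_cancel h1
  have hinv : x * a * x⁻¹ = a⁻¹ := by
    calc x * a * x⁻¹ = (x * a * x) * x⁻¹ * x⁻¹ := by group
      _ = a * x⁻¹ * x⁻¹ := by rw [hrel]
      _ = a * (x ^ 2)⁻¹ := by rw [pow_two]; group
      _ = a * (a ^ 2)⁻¹ := by rw [hx2, ha2]
      _ = a⁻¹ := by rw [pow_two]; group
  obtain ⟨m, ⟨e⟩⟩ := Cfsg.Agent.Lib.Cl.quaternion_of_inverts (a := a) (n := 2) hord (by norm_num)
    (by rw [hc]; norm_num) hx (by rw [hx2, ← ha2]; norm_num) hinv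
  have hm : m = 2 := by
    have h1 : Nat.card (QuaternionGroup m) = 8 := by
      rw [← Nat.card_congr e.toEquiv, hc]
    rcases Nat.eq_zero_or_pos m with rfl | hpos
    · exfalso
      have hinf : Infinite (QuaternionGroup 0) :=
        Infinite.of_injective (fun n : ℕ => (QuaternionGroup.a (n : ZMod (2 * 0)) : QuaternionGroup 0)) (by
          intro u v huv
          have := QuaternionGroup.a.inj huv
          simpa using this)
      rw [Nat.card_eq_zero_of_infinite] at h1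
      omega
    · have : NeZero m := ⟨hpos.ne'⟩
      rw [Nat.card_eq_fintype_card, QuaternionGroup.card] at h1
      omega
  subst hm
  exact ⟨e⟩

theorem factorization_72_3 : (72 : ℕ).factorization 3 = 2 := by
  rw [show (72 : ℕ) = 3 ^ 2 * 8 by norm_num, Nat.factorization_mul (by norm_num) (by norm_num),
    Nat.factorization_pow, Nat.prime_three.factorization]
  have : (8 : ℕ).factorization 3 = 0 := Nat.factorization_eq_zero_of_not_dvd (by norm_num)
  simp [this]

theorem factorization_72_2 : (72 : ℕ).factorization 2 = 3 := by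
  rw [show (72 : ℕ) = 2 ^ 3 * 9 by norm_num, Nat.factorization_mul (by norm_num) (by norm_num),
    Nat.factorization_pow, Nat.prime_two.factorization]
  have : (9 : ℕ).factorization 2 = 0 := Nat.factorization_eq_zero_of_not_dvd (by norm_num)
  simp [this]

/-- The abstract form: the conditions determining the structure of `3^2:Q8`. -/
theorem m9_abstract {G : Type*} [Group G] (hc : Nat.card G = 72) (hN : {x : G | x ^ 3 = 1}.ncard ≤ 9)
    (h9 : ∀ x : G, x ^ 9 = 1 → x ^ 3 = 1) (h8 : ∀ x : G, x ^ 8 = 1 → x ^ 4 = 1)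
    (hinv : ∀ s t : G, s ^ 2 = 1 → t ^ 2 = 1 → s ≠ 1 → t ≠ 1 → (s * t) ^ 8 = 1 → s = t) :
    (∀ Q : Sylow 3 G, (Q : Subgroup G).Normal ∧ Nat.card (Q : Subgroup G) = 9 ∧ ∀ x ∈ (Q : Subgroup G), x ^ 3 = 1) ∧
      ∀ P : Sylow 2 G, Nonempty ((P : Subgroup G) ≃* QuaternionGroup 2) := by
  have hfin : Finite G := Nat.finite_of_card_ne_zero (by omega)
  have : Fact (Nat.Prime 3) := ⟨Nat.prime_three⟩
  have : Fact (Nat.Prime 2) := ⟨Nat.prime_two⟩
  refine ⟨fun Q => ?_, fun P => ?_⟩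
  · have hcQ : Nat.card (Q : Subgroup G) = 9 := by
      rw [Q.card_eq_multiplicity, hc, factorization_72_3]
      norm_num
    have hQ3 : ∀ x ∈ (Q : Subgroup G), x ^ 3 = 1 := by
      intro x hx
      apply h9
      have h1 : ((⟨x, hx⟩ : (Q : Subgroup G))) ^ Nat.card (Q : Subgroup G) = 1 := pow_card_eq_one'
      rw [hcQ] at h1
      simpa using congrArg Subtype.val h1
    have hset : ((Q : Subgroup G) : Set G) = {x : G | x ^ 3 = 1} := by
      apply Set.eq_of_subset_of_ncard_le (fun x hx => hQ3 x hx)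
      · rw [← Nat.card_coe_set_eq]
        show _ ≤ Nat.card (Q : Subgroup G)
        rw [hcQ]
        exact hN
    refine ⟨⟨fun n hn g => ?_⟩, hcQ, hQ3⟩
    have h1 : g * n * g⁻¹ ∈ ({x : G | x ^ 3 = 1}) := by
      show (g * n * g⁻¹) ^ 3 = 1
      rw [conj_pow, hQ3 n hn]
      group
    rw [← hset] at h1
    exact h1
  · have hcP : Nat.card (P : Subgroup G) = 8 := by
      rw [P.card_eq_multiplicity, hc, factorization_72_2]
      norm_num
    have hP8 : ∀ x ∈ (P : Subgroup G), x ^ 8 = 1 := by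
      intro x hx
      have h1 : ((⟨x, hx⟩ : (P : Subgroup G))) ^ Nat.card (P : Subgroup G) = 1 := pow_card_eq_one'
      rw [hcP] at h1
      simpa using congrArg Subtype.val h1
    apply q8_of_unique_invol hcP
    · rintro ⟨x, hx⟩
      ext
      simpa using h8 x (hP8 x hx)
    · rintro ⟨s, hs⟩ ⟨t, ht⟩ h1 h2 h3 h4
      have h1' : s ^ 2 = 1 := by simpa using congrArg Subtype.val h1
      have h2' : t ^ 2 = 1 := by simpa using congrArg Subtype.val h2
      have h3' : s ≠ 1 := fun e => h3 (Subtype.ext e)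
      have h4' : t ≠ 1 := fun e => h4 (Subtype.ext e)
      exact Subtype.ext (hinv s t h1' h2' h3' h4' (hP8 _ (Subgroup.mul_mem _ hs ht)))

/-! ### Checks at the base -/

/-- Iterates of a function. -/
noncomputable def iterF (f : ℕ → ℕ) (k i : ℕ) : ℕ := Nat.rec i (fun _ ih => f ih) k

theorem iterF_code {σ : Equiv.Perm GolayPt} {f : ℕ → ℕ} (h : enc.IsCode σ f) (k : ℕ) :
    enc.IsCode (σ ^ k) (iterF f k) := by
  induction k with
  | zero => exact isCode_one
  | succ k ih =>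
    rw [pow_succ']
    intro a
    show f (iterF f k (enc.idx a)) = enc.idx (σ ((σ ^ k) a))
    rw [ih a, h ((σ ^ k) a)]

theorem m9_check : m9L.all (fun e => vld e && Nat.beq (imgMask (pc e) 340831 24) 340831 && Nat.beq (pc e 0) 0 &&
    Nat.beq (pc e 1) 1 && Nat.beq (pc e 2) 2) = true := by
  decide +kernel

theorem m9_cover : allBelow (fun a => allBelow (fun b => !(tb 340831 a) || !(tb 340831 b) || Nat.beq a b ||
    Nat.beq a 0 || Nat.beq a 1 || Nat.beq a 2 || Nat.beq b 0 || Nat.beq b 1 || Nat.beq b 2 ||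
    m9L.any fun e => Nat.beq (pc e 3) a && Nat.beq (pc e 4) b) 24) 24 = true := by
  decide +kernel

theorem m9_keys : ascB (m9L.map fun p => keyOf (pc p)) = true := by decide +kernel

theorem m9_len : m9L.length = 72 := by decide +kernel

theorem m9_cubes : (m9L.filter fun e => idF (iterF (pc e) 3)).length ≤ 9 := by decide +kernel

theorem m9_ninth : m9L.all (fun e => !(idF (iterF (pc e) 9)) || idF (iterF (pc e) 3)) = true := by decide +kernel

theorem m9_eighth : m9L.all (fun e => !(idF (iterF (pc e) 8)) || idF (iterF (pc e) 4)) = true := by decide +kernel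

theorem m9_invol : m9L.all (fun s => !(idF (iterF (pc s) 2)) || idF (pc s) ||
    m9L.all fun t => !(idF (iterF (pc t) 2)) || idF (pc t) ||
      !(idF (iterF (fun i => pc s (pc t i)) 8)) || eqF (pc s) (pc t)) = true := by
  decide +kernel

/-- The set `M9` at the base. -/
def A0 (σ : Equiv.Perm GolayPt) : Prop :=
  σ ∈ M24 ∧ σ • (enc.finOf 340831 : Finset GolayPt) = enc.finOf 340831 ∧ σ (pt 0) = pt 0 ∧ σ (pt 1) = pt 1 ∧ σ (pt 2) = pt 2

theorem m9_el {e : ℕ} (he : e ∈ m9L) : vld e = true ∧ A0 (ppm e) := by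
  have h := List.all_eq_true.1 m9_check e he
  simp only [Bool.and_eq_true] at h
  obtain ⟨⟨⟨⟨hv, h1⟩, h2⟩, h3⟩, h4⟩ := h
  have hc := vld_code hv
  refine ⟨hv, vld_mem hv, ?_, ?_, ?_, ?_⟩
  · rw [img_finOf hc, Nat.eq_of_beq_eq_true h1]
  · rw [code_pt hc (by norm_num), Nat.eq_of_beq_eq_true h2]
  · rw [code_pt hc (by norm_num), Nat.eq_of_beq_eq_true h3]
  · rw [code_pt hc (by norm_num), Nat.eq_of_beq_eq_true h4]

theorem mem_finOf_pt' {m i : ℕ} (hi : i < 24) : pt i ∈ (enc.finOf m : Finset GolayPt) ↔ tb m i = true := by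
  rw [tb_eq, enc.mem_finOf]
  show m.testBit (idx (pt i)) = true ↔ _
  rw [idx_pt hi]

theorem mem_finOf_tb {m : ℕ} {a : GolayPt} : a ∈ (enc.finOf m : Finset GolayPt) ↔ tb m (idx a) = true := by
  rw [tb_eq, enc.mem_finOf]
  rfl

theorem D0_eq_mask : D0 = (enc.finOf 340831 : Finset GolayPt) := rfl

/-- Every element of the set at the base is in the list. -/
theorem m9_mem_of_A0 {σ : Equiv.Perm GolayPt} (h : A0 σ) : ∃ e ∈ m9L, σ = ppm e := by
  obtain ⟨hM, hD, h0, h1, h2⟩ := h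
  have hσD : ∀ i, i < 24 → tb 340831 i = true → tb 340831 (idx (σ (pt i))) = true := by
    intro i hi ht
    rw [← mem_finOf_tb, ← hD]
    exact Finset.mem_smul_finset.2 ⟨pt i, (mem_finOf_pt' hi).2 ht, rfl⟩
  have hne : ∀ i j, i < 24 → j < 24 → i ≠ j → idx (σ (pt i)) ≠ idx (σ (pt j)) := by
    intro i j hi hj hij e
    exact hij (pt_inj hi hj (σ.injective (enc.idx_injective e)))
  have hchk := (allBelow_iff _ _).1 ((allBelow_iff _ _).1 m9_cover (idx (σ (pt 3))) (idx_lt _)) (idx (σ (pt 4))) (idx_lt _)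
  have hfa : ∀ i j, i < 24 → j < 24 → i ≠ j → Nat.beq (idx (σ (pt i))) (idx (σ (pt j))) = false := by
    intro i j hi hj hij
    rw [← Bool.not_eq_true, Nat.beq_eq]
    exact hne i j hi hj hij
  have hf0 : ∀ i j, i < 24 → j < 24 → i ≠ j → σ (pt j) = pt j → Nat.beq (idx (σ (pt i))) j = false := by
    intro i j hi hj hij hfix
    have := hfa i j hi hj hij
    rwa [hfix, idx_pt hj] at this
  rw [hσD 3 (by norm_num) (by decide +kernel), hσD 4 (by norm_num) (by decide +kernel),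
    hfa 3 4 (by norm_num) (by norm_num) (by norm_num),
    hf0 3 0 (by norm_num) (by norm_num) (by norm_num) h0, hf0 3 1 (by norm_num) (by norm_num) (by norm_num) h1,
    hf0 3 2 (by norm_num) (by norm_num) (by norm_num) h2, hf0 4 0 (by norm_num) (by norm_num) (by norm_num) h0,
    hf0 4 1 (by norm_num) (by norm_num) (by norm_num) h1, hf0 4 2 (by norm_num) (by norm_num) (by norm_num) h2] at hchk
  simp only [Bool.not_true, Bool.false_or, List.any_eq_true, Bool.and_eq_true] at hchk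
  obtain ⟨e, he, h3, h4⟩ := hchk
  refine ⟨e, he, ?_⟩
  obtain ⟨hv, heM, heD, he0, he1, he2⟩ := m9_el he
  have hc := vld_code hv
  have hone : (ppm e)⁻¹ * σ = 1 := by
    apply eq_one_of_five (M24.mul_mem (M24.inv_mem heM) hM) D0_mem (d := D0) (F := enc.finOf 31)
    · rw [D0_eq_mask, mul_smul, hD, inv_smul_eq_iff, heD]
    · decide +kernel
    · decide +kernel
    · intro q hq
      have hq' : q = pt 0 ∨ q = pt 1 ∨ q = pt 2 ∨ q = pt 3 ∨ q = pt 4 := by
        revert q
        decide +kernel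
      rw [Equiv.Perm.mul_apply, Equiv.Perm.inv_eq_iff_eq]
      rcases hq' with rfl | rfl | rfl | rfl | rfl
      · rw [h0, he0]
      · rw [h1, he1]
      · rw [h2, he2]
      · rw [code_pt hc (by norm_num), Nat.eq_of_beq_eq_true h3, pt_idx]
      · rw [code_pt hc (by norm_num), Nat.eq_of_beq_eq_true h4, pt_idx]
  exact (inv_mul_eq_one.1 hone).symm

/-- Tests for a power of an element of the list. -/
theorem pow_eq_one_iff_code {σ : Equiv.Perm GolayPt} {f : ℕ → ℕ} (hf : enc.IsCode σ f) (k : ℕ) :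
    σ ^ k = 1 ↔ idF (iterF f k) = true :=
  ((idF_iff (iterF_code hf k))).symm

/-! ### Transport to an arbitrary dodecad and three points -/

theorem base5_mem : ∀ i : Fin 5, pt i ∈ (enc.finOf 340831 : Finset GolayPt) := by decide +kernel

theorem exists_normal_M9 {d : Finset GolayPt} (hd : d ∈ dodecads) {p q r : GolayPt} (hp : p ∈ d) (hq : q ∈ d) (hr : r ∈ d)
    (hpq : p ≠ q) (hpr : p ≠ r) (hqr : q ≠ r) :
    ∃ c ∈ M24, c • d = (enc.finOf 340831 : Finset GolayPt) ∧ c p = pt 0 ∧ c q = pt 1 ∧ c r = pt 2 := by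
  classical
  obtain ⟨g, hg, hgd⟩ := exists_image_eq_D0 hd
  have hgD : ∀ {a}, a ∈ d → g a ∈ D0 := fun ha => by
    rw [← hgd]
    exact Finset.mem_image_of_mem _ ha
  have hc1 : 2 ≤ (D0 \ {g p, g q, g r}).card := by
    have h1 := Finset.le_card_sdiff ({g p, g q, g r} : Finset GolayPt) D0
    have h2 : ({g p, g q, g r} : Finset GolayPt).card ≤ 3 := Finset.card_le_three
    have h3 : D0.card = 12 := D0_mem.2
    omega
  obtain ⟨U, hU, hU2⟩ := Finset.exists_subset_card_eq hc1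
  obtain ⟨u, v, huv, rfl⟩ := Finset.card_eq_two.1 hU2
  have hu := Finset.mem_sdiff.1 (hU (Finset.mem_insert_self _ _))
  have hv := Finset.mem_sdiff.1 (hU (Finset.mem_insert_of_mem (Finset.mem_singleton_self _)))
  simp only [Finset.mem_insert, Finset.mem_singleton, not_or] at hu hv
  have hgi : ∀ {a b : GolayPt}, a ≠ b → g a ≠ g b := fun h e => h (g.injective e)
  let x : Fin 5 ↪ GolayPt := ⟨![g p, g q, g r, u, v], by
    intro i j h
    have h1 := hgi hpq
    have h2 := hgi hpr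
    have h3 := hgi hqr
    fin_cases i <;> fin_cases j <;> simp_all⟩
  let y : Fin 5 ↪ GolayPt := ⟨fun i => pt i, by
    intro i j h
    exact Fin.ext (pt_inj (by have := i.2; omega) (by have := j.2; omega) h)⟩
  have hxD : ∀ i, x i ∈ D0 := by
    intro i
    fin_cases i
    · exact hgD hp
    · exact hgD hq
    · exact hgD hr
    · exact hu.1
    · exact hv.1
  have hyD : ∀ i, y i ∈ D0 := by
    intro i
    exact base5_mem i
  obtain ⟨k, hk, -⟩ := sharply_five_transitive D0_mem x y hxD hyD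
  have hk0 : (k : ↥M24).1 • D0 = D0 := k.2
  refine ⟨(k : ↥M24).1 * g, M24.mul_mem (k : ↥M24).2 hg, ?_, hk 0, hk 1, hk 2⟩
  rw [mul_smul]
  have h5 : g • d = D0 := hgd
  rw [h5, hk0]

section J

/-- The group of interest. -/
abbrev JJ (d : Finset GolayPt) (p q r : GolayPt) : Subgroup ↥M24 :=
  MulAction.stabilizer ↥M24 d ⊓ MulAction.stabilizer ↥M24 p ⊓ MulAction.stabilizer ↥M24 q ⊓ MulAction.stabilizer ↥M24 r

variable {d : Finset GolayPt} {p q r : GolayPt} {c : Equiv.Perm GolayPt}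

/-- The homomorphism to the permutations, conjugating by `c`. -/
def toBase (c : Equiv.Perm GolayPt) (d : Finset GolayPt) (p q r : GolayPt) :
    ↥(MulAction.stabilizer ↥M24 d ⊓ MulAction.stabilizer ↥M24 p ⊓ MulAction.stabilizer ↥M24 q ⊓ MulAction.stabilizer ↥M24 r) →*
      Equiv.Perm GolayPt where
  toFun x := c * x.1.1 * c⁻¹
  map_one' := by
    show c * 1 * c⁻¹ = 1
    group
  map_mul' a b := by
    show c * (a.1.1 * b.1.1) * c⁻¹ = (c * a.1.1 * c⁻¹) * (c * b.1.1 * c⁻¹)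
    group

theorem toBase_inj : Function.Injective (toBase c d p q r) := by
  intro a b h
  have h1 : c * a.1.1 * c⁻¹ = c * b.1.1 * c⁻¹ := h
  apply Subtype.ext
  apply Subtype.ext
  exact mul_left_cancel (mul_right_cancel h1)

variable (hc : c ∈ M24) (h1 : c • d = (enc.finOf 340831 : Finset GolayPt)) (h2 : c p = pt 0) (h3 : c q = pt 1) (h4 : c r = pt 2)

include hc h1 h2 h3 h4

theorem toBase_mem (x : ↥(JJ d p q r)) : A0 (toBase c d p q r x) := by
  obtain ⟨⟨⟨h5, h6⟩, h7⟩, h8⟩ := x.2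
  have h5' : x.1.1 • d = d := h5
  have h6' : x.1.1 p = p := h6
  have h7' : x.1.1 q = q := h7
  have h8' : x.1.1 r = r := h8
  have hci : ∀ {a b}, c a = b → c⁻¹ b = a := fun e => by rw [Equiv.Perm.inv_eq_iff_eq, e]
  refine ⟨M24.mul_mem (M24.mul_mem hc x.1.2) (M24.inv_mem hc), ?_, ?_, ?_, ?_⟩
  · show (c * x.1.1 * c⁻¹) • (enc.finOf 340831 : Finset GolayPt) = _
    rw [← h1, mul_smul, mul_smul, inv_smul_smul, h5']
  · show (c * x.1.1 * c⁻¹) (pt 0) = pt 0
    simp only [Equiv.Perm.mul_apply, hci h2, h6', h2]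
  · show (c * x.1.1 * c⁻¹) (pt 1) = pt 1
    simp only [Equiv.Perm.mul_apply, hci h3, h7', h3]
  · show (c * x.1.1 * c⁻¹) (pt 2) = pt 2
    simp only [Equiv.Perm.mul_apply, hci h4, h8', h4]

theorem toBase_surj {σ : Equiv.Perm GolayPt} (hσ : A0 σ) : ∃ x, toBase c d p q r x = σ := by
  obtain ⟨hM, hD, h0', h1', h2'⟩ := hσ
  have hx : c⁻¹ * σ * c ∈ M24 := M24.mul_mem (M24.mul_mem (M24.inv_mem hc) hM) hc
  refine ⟨⟨⟨c⁻¹ * σ * c, hx⟩, ⟨⟨?_, ?_⟩, ?_⟩, ?_⟩, ?_⟩
  · show (c⁻¹ * σ * c) • d = d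
    rw [mul_smul, mul_smul, h1, hD, ← h1, inv_smul_smul]
  · show (c⁻¹ * σ * c) p = p
    rw [Equiv.Perm.mul_apply, Equiv.Perm.mul_apply, h2, h0', Equiv.Perm.inv_eq_iff_eq, h2]
  · show (c⁻¹ * σ * c) q = q
    rw [Equiv.Perm.mul_apply, Equiv.Perm.mul_apply, h3, h1', Equiv.Perm.inv_eq_iff_eq, h3]
  · show (c⁻¹ * σ * c) r = r
    rw [Equiv.Perm.mul_apply, Equiv.Perm.mul_apply, h4, h2', Equiv.Perm.inv_eq_iff_eq, h4]
  · show c * (c⁻¹ * σ * c) * c⁻¹ = σ
    group

theorem toBase_list (x : ↥(JJ d p q r)) : ∃ e ∈ m9L, toBase c d p q r x = ppm e :=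
  m9_mem_of_A0 (toBase_mem hc h1 h2 h3 h4 x)

theorem card_J : Nat.card ↥(MulAction.stabilizer ↥M24 d ⊓ MulAction.stabilizer ↥M24 p ⊓ MulAction.stabilizer ↥M24 q ⊓
    MulAction.stabilizer ↥M24 r) = 72 := by
  have h := card_of_list (A := Set.range (toBase c d p q r)) (L := m9L)
    (fun e he => (m9_el he).1)
    (fun e he => toBase_surj hc h1 h2 h3 h4 (m9_el he).2)
    (fun σ hσ => by
      obtain ⟨x, rfl⟩ := hσ
      exact toBase_list hc h1 h2 h3 h4 x)
    (nodup_keys_of_asc m9_keys)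
  rw [m9_len] at h
  rw [← h, ← Set.image_univ, Set.ncard_image_of_injective _ toBase_inj, Set.ncard_univ]

theorem J_pow9 (x : ↥(JJ d p q r)) : x ^ 9 = 1 → x ^ 3 = 1 := by
  intro hx
  obtain ⟨e, he, hxe⟩ := toBase_list hc h1 h2 h3 h4 x
  have hv := (m9_el he).1
  have hcode := vld_code hv
  have h5 : (ppm e) ^ 9 = 1 := by rw [← hxe, ← map_pow, hx, map_one]
  have h6 := List.all_eq_true.1 m9_ninth e he
  rw [(pow_eq_one_iff_code hcode 9).1 h5] at h6
  simp only [Bool.not_true, Bool.false_or] at h6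
  have h7 := (pow_eq_one_iff_code hcode 3).2 h6
  apply toBase_inj (c := c) (d := d) (p := p) (q := q) (r := r)
  rw [map_pow, hxe, h7, map_one]

theorem J_pow8 (x : ↥(JJ d p q r)) : x ^ 8 = 1 → x ^ 4 = 1 := by
  intro hx
  obtain ⟨e, he, hxe⟩ := toBase_list hc h1 h2 h3 h4 x
  have hv := (m9_el he).1
  have hcode := vld_code hv
  have h5 : (ppm e) ^ 8 = 1 := by rw [← hxe, ← map_pow, hx, map_one]
  have h6 := List.all_eq_true.1 m9_eighth e he
  rw [(pow_eq_one_iff_code hcode 8).1 h5] at h6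
  simp only [Bool.not_true, Bool.false_or] at h6
  have h7 := (pow_eq_one_iff_code hcode 4).2 h6
  apply toBase_inj (c := c) (d := d) (p := p) (q := q) (r := r)
  rw [map_pow, hxe, h7, map_one]

theorem J_invol (s t : ↥(JJ d p q r)) : s ^ 2 = 1 → t ^ 2 = 1 → s ≠ 1 → t ≠ 1 → (s * t) ^ 8 = 1 → s = t := by
  intro hs ht hs1 ht1 hst
  obtain ⟨e, he, hse⟩ := toBase_list hc h1 h2 h3 h4 s
  obtain ⟨f, hf, htf⟩ := toBase_list hc h1 h2 h3 h4 t
  have hve := (m9_el he).1
  have hvf := (m9_el hf).1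
  have hce := vld_code hve
  have hcf := vld_code hvf
  have inj := toBase_inj (c := c) (d := d) (p := p) (q := q) (r := r)
  have h5 : (ppm e) ^ 2 = 1 := by rw [← hse, ← map_pow, hs, map_one]
  have h6 : (ppm f) ^ 2 = 1 := by rw [← htf, ← map_pow, ht, map_one]
  have h7 : ppm e ≠ 1 := by
    rw [← hse, ← map_one (toBase c d p q r)]
    exact fun e' => hs1 (inj e')
  have h8 : ppm f ≠ 1 := by
    rw [← htf, ← map_one (toBase c d p q r)]
    exact fun e' => ht1 (inj e')
  have h9 : (ppm e * ppm f) ^ 8 = 1 := by rw [← hse, ← htf, ← map_mul, ← map_pow, hst, map_one]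
  have hno : ∀ {σ : Equiv.Perm GolayPt} {g : ℕ → ℕ}, enc.IsCode σ g → σ ≠ 1 → idF g = false := by
    intro σ g hg hσ
    cases h : idF g
    · rfl
    · exact absurd ((idF_iff hg).1 h) hσ
  have h10 := List.all_eq_true.1 m9_invol e he
  rw [(pow_eq_one_iff_code hce 2).1 h5, hno hce h7] at h10
  simp only [Bool.not_true, Bool.false_or, List.all_eq_true] at h10
  have h11 := h10 f hf
  rw [(pow_eq_one_iff_code hcf 2).1 h6, hno hcf h8,
    (pow_eq_one_iff_code (isCode_mul hce hcf) 8).1 h9] at h11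
  simp only [Bool.not_true, Bool.false_or] at h11
  have h12 := (eqF_iff hce hcf).1 h11
  apply inj
  rw [hse, htf, h12]

theorem J_cubes : {x : ↥(MulAction.stabilizer ↥M24 d ⊓ MulAction.stabilizer ↥M24 p ⊓ MulAction.stabilizer ↥M24 q ⊓
    MulAction.stabilizer ↥M24 r) | x ^ 3 = 1}.ncard ≤ 9 := by
  classical
  have hsub : toBase c d p q r '' {x | x ^ 3 = 1} ⊆
      ((m9L.filter fun e => idF (iterF (pc e) 3)).map ppm).toFinset := by
    rintro _ ⟨x, hx, rfl⟩
    obtain ⟨e, he, hxe⟩ := toBase_list hc h1 h2 h3 h4 x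
    have hv := (m9_el he).1
    have hcode := vld_code hv
    have hx3 : x ^ 3 = 1 := hx
    have h5 : (ppm e) ^ 3 = 1 := by rw [← hxe, ← map_pow, hx3, map_one]
    rw [hxe]
    simp only [List.coe_toFinset, Set.mem_ofPred_eq, List.mem_map, List.mem_filter]
    exact ⟨e, ⟨he, (pow_eq_one_iff_code hcode 3).1 h5⟩, rfl⟩
  have h5 := Set.ncard_le_ncard hsub (Finset.finite_toSet _)
  rw [Set.ncard_image_of_injective _ toBase_inj, Set.ncard_coe_finset] at h5
  exact h5.trans ((List.toFinset_card_le _).trans (by rw [List.length_map]; exact m9_cubes))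

end J

end Cfsg.Agent.Lib.M24
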