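import Mathlib

/-!
# Data: elements of the stabiliser of an octad or a dodecad and code words whose displacements span the code
-/

namespace Cfsg.Agent.Lib.M24

/-- Elements of the stabiliser of the base octad with code words. -/
def moveO : List (ℕ × ℕ) := [(596694040115488943753720585613639799, 13062145), (596694040115488943753720585613639799, 4845570), (596694040115488943753720585613639799, 13938692), (596694040115488943753720585613639799, 7221256), (596694040115488943753720585613639799, 15515712), (596694040115488943753720585613639799, 2019456), (596694040115488943753720585613639799, 4038912), (733680131894391974249809924007728163, 13062145), (733680131894391974249809924007728163, 4845570), (733680131894391974249809924007728163, 13938692), (733680131894391974249809924007728163, 7221256), (733680131894391974249809924007728163, 11654144)]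
/-- The basis in terms of the displacements. -/
def certO : List ℕ := [2324, 652, 4062, 3756, 3442, 2790, 586, 387, 256, 1201, 1592, 3079]
/-- Elements of the stabiliser of the base dodecad with code words. -/
def moveD : List (ℕ × ℕ) := [(305763311661750277150245609738904674, 13062145), (305763311661750277150245609738904674, 4845570), (305763311661750277150245609738904674, 13938692), (305763311661750277150245609738904674, 7221256), (305763311661750277150245609738904674, 10170384), (305763311661750277150245609738904674, 11952160), (305763311661750277150245609738904674, 15515712), (305763311661750277150245609738904674, 2019456), (444518999871511118392752431523187081, 13062145), (444518999871511118392752431523187081, 4845570), (444518999871511118392752431523187081, 11952160), (720090630163636147958039474549600681, 15515712)]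
/-- The basis in terms of the displacements. -/
def certD : List ℕ := [1248, 1871, 1294, 1837, 421, 431, 3169, 389, 415, 1354, 271, 96]

end Cfsg.Agent.Lib.M24
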