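import Cfsg.Agent.Lib.M24.Words
import Cfsg.Agent.Lib.M24.MoveData
import Cfsg.Agent.Lib.M24.Six

/-!
# The stabiliser of a word of the code moves every coset of the code
-/

set_option autoImplicit false

namespace Cfsg.Agent.Lib.M24

open Cfsg Cfsg.Agent.Lib.Compute Cfsg.Agent.Lib.Golay
open scoped Pointwise

/-- The displacement of a word under an element. -/
noncomputable def moveMask (x : ℕ × ℕ) : ℕ := x.2 ^^^ imgMask (pc x.1) x.2 24

theorem permWord_mul (a b : Equiv.Perm GolayPt) (w : GolayPt → ZMod 2) :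
    permWord (a * b) w = permWord a (permWord b w) := rfl

theorem permWord_inv_self (a : Equiv.Perm GolayPt) (w : GolayPt → ZMod 2) : permWord a (permWord a⁻¹ w) = w := by
  rw [← permWord_mul, mul_inv_cancel]
  rfl

theorem permWord_self_inv (a : Equiv.Perm GolayPt) (w : GolayPt → ZMod 2) : permWord a⁻¹ (permWord a w) = w := by
  rw [← permWord_mul, inv_mul_cancel]
  rfl

theorem pairing_permWord (τ : Equiv.Perm GolayPt) (c w : GolayPt → ZMod 2) :
    ∑ i, permWord τ c i * w i = ∑ i, c i * permWord τ⁻¹ w i := by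
  apply Fintype.sum_equiv τ.symm
  intro a
  have h : (τ⁻¹).symm (τ.symm a) = a := τ.apply_symm_apply a
  show c (τ.symm a) * w a = c (τ.symm a) * w ((τ⁻¹).symm (τ.symm a))
  rw [h]

theorem exists_move {L : List (ℕ × ℕ)} {cert : List ℕ} (hL : ∀ x ∈ L, vld x.1 = true ∧ inCode x.2 = true)
    (hc : basis = cert.map (spanWord (L.map moveMask))) {w : GolayPt → ZMod 2} (hw : w ∉ golayCode) :
    ∃ x ∈ L, permWord (ppm x.1)⁻¹ w + w ∉ golayCode := by
  by_contra hall
  push Not at hall
  apply hw
  apply mem_of_pairing_span hc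
  intro g hg
  obtain ⟨x, hx, rfl⟩ := List.mem_map.1 hg
  obtain ⟨h1, h2⟩ := hL x hx
  have hcw : wordOf x.2 ∈ golayCode := mem_of_inCode h2
  have h3 : wordOf (moveMask x) = wordOf x.2 + permWord (ppm x.1) (wordOf x.2) := by
    rw [permWord_wordOf (vld_code h1), moveMask, wordOf_xor]
  rw [h3, pairing_add_left, pairing_permWord]
  have h4 := pairing_eq_zero hcw (hall x hx)
  have h5 : ∑ i, wordOf x.2 i * (permWord (ppm x.1)⁻¹ w + w) i =
      ∑ i, wordOf x.2 i * permWord (ppm x.1)⁻¹ w i + ∑ i, wordOf x.2 i * w i := by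
    rw [← Finset.sum_add_distrib]
    apply Finset.sum_congr rfl
    intro i _
    rw [Pi.add_apply, mul_add]
  rw [h5] at h4
  rw [add_comm]
  exact h4

theorem moveO_check : moveO.all (fun x => vld x.1 && inCode x.2 && Nat.beq (imgMask (pc x.1) O0 24) O0) = true := by
  decide +kernel

theorem moveD_check : moveD.all (fun x => vld x.1 && inCode x.2 && Nat.beq (imgMask (pc x.1) 340831 24) 340831) = true := by
  decide +kernel

theorem certO_spec : basis = certO.map (spanWord (moveO.map moveMask)) := by decide +kernel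

theorem certD_spec : basis = certD.map (spanWord (moveD.map moveMask)) := by decide +kernel

/-- The transport. -/
theorem move_transport {L : List (ℕ × ℕ)} {cert : List ℕ} {m : ℕ} (hL : ∀ x ∈ L, vld x.1 = true ∧ inCode x.2 = true)
    (hfixL : ∀ x ∈ L, Nat.beq (imgMask (pc x.1) m 24) m = true)
    (hc : basis = cert.map (spanWord (L.map moveMask))) {g : Equiv.Perm GolayPt} (hg : g ∈ M24)
    {u w : GolayPt → ZMod 2} (hfix : ∀ σ : Equiv.Perm GolayPt, σ • (g • (enc.finOf m : Finset GolayPt)) = g • enc.finOf m →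
      permWord σ u = u) (hw : w ∉ golayCode) :
    ∃ σ ∈ M24, (fun p => u (σ.symm p)) = u ∧ (fun p => w (σ.symm p)) - w ∉ golayCode := by
  have hw' : permWord g⁻¹ w ∉ golayCode := by
    intro h
    apply hw
    rw [← permWord_inv_self g w]
    exact permWord_mem_of_mem_M24 hg h
  obtain ⟨x, hx, hmove⟩ := exists_move hL hc hw'
  obtain ⟨h1, _⟩ := hL x hx
  set τ := ppm x.1 with hτ
  have hτM : τ ∈ M24 := vld_mem h1
  have hτm : τ • (enc.finOf m : Finset GolayPt) = enc.finOf m := by
    rw [img_finOf (vld_code h1), Nat.eq_of_beq_eq_true (hfixL x hx)]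
  refine ⟨g * τ⁻¹ * g⁻¹, M24.mul_mem (M24.mul_mem hg (M24.inv_mem hτM)) (M24.inv_mem hg), ?_, ?_⟩
  · apply hfix
    rw [mul_smul, mul_smul, inv_smul_smul]
    congr 1
    exact inv_smul_eq_iff.2 hτm.symm
  · intro hmem
    apply hmove
    have h2 : (fun p => w ((g * τ⁻¹ * g⁻¹).symm p)) - w = permWord g (permWord τ⁻¹ (permWord g⁻¹ w) + permWord g⁻¹ w) := by
      have e1 : permWord g (permWord τ⁻¹ (permWord g⁻¹ w) + permWord g⁻¹ w) =
          permWord (g * τ⁻¹ * g⁻¹) w + w := by
        rw [permWord_add, permWord_inv_self]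
        rfl
      rw [e1]
      funext a
      exact CharTwo.sub_eq_add _ _
    rw [h2] at hmem
    have h3 := permWord_mem_of_mem_M24 (M24.inv_mem hg) hmem
    rwa [permWord_self_inv] at h3

theorem moveO_L : ∀ x ∈ moveO, vld x.1 = true ∧ inCode x.2 = true := by
  intro x hx
  have := List.all_eq_true.1 moveO_check x hx
  simp only [Bool.and_eq_true] at this
  exact this.1

theorem moveO_fix : ∀ x ∈ moveO, Nat.beq (imgMask (pc x.1) O0 24) O0 = true := by
  intro x hx
  have := List.all_eq_true.1 moveO_check x hx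
  simp only [Bool.and_eq_true] at this
  exact this.2

theorem moveD_L : ∀ x ∈ moveD, vld x.1 = true ∧ inCode x.2 = true := by
  intro x hx
  have := List.all_eq_true.1 moveD_check x hx
  simp only [Bool.and_eq_true] at this
  exact this.1

theorem moveD_fix : ∀ x ∈ moveD, Nat.beq (imgMask (pc x.1) 340831 24) 340831 = true := by
  intro x hx
  have := List.all_eq_true.1 moveD_check x hx
  simp only [Bool.and_eq_true] at this
  exact this.2

/-- The main statement. -/
theorem stabilizer_moves_cosets (u : GolayPt → ZMod 2) (hu : u ∈ golayCode) (w : GolayPt → ZMod 2) (hw : w ∉ golayCode) :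
    ∃ σ ∈ M24, (fun p => u (σ.symm p)) = u ∧ (fun p => w (σ.symm p)) - w ∉ golayCode := by
  have viaO : ∀ (g : Equiv.Perm GolayPt), g ∈ M24 → (∀ σ : Equiv.Perm GolayPt,
      σ • (g • (enc.finOf O0 : Finset GolayPt)) = g • enc.finOf O0 → permWord σ u = u) →
      ∃ σ ∈ M24, (fun p => u (σ.symm p)) = u ∧ (fun p => w (σ.symm p)) - w ∉ golayCode :=
    fun g hg hfix => move_transport moveO_L moveO_fix certO_spec hg hfix hw
  have hsupp : ∀ σ : Equiv.Perm GolayPt, σ • support₂ u = support₂ u → permWord σ u = u := by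
    intro σ h
    apply support_inj
    rw [support_permWord, h]
  rcases weight_cases hu with h | h | h | h | h
  · have hu0 : u = 0 := hammingNorm_eq_zero.1 h
    refine viaO 1 M24.one_mem fun σ _ => ?_
    rw [hu0]
    rfl
  · obtain ⟨g, hg⟩ := octads_transitive O0_octad (support_mem_octads hu h)
    refine viaO g.1 g.2 fun σ hσ => hsupp σ ?_
    have hg' : g.1 • (enc.finOf O0 : Finset GolayPt) = support₂ u := hg
    rw [hg'] at hσ
    exact hσ
  · have hD : (enc.finOf 340831 : Finset GolayPt) ∈ dodecads := D0_mem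
    obtain ⟨g, hg⟩ := dodecads_transitive hD (support_mem_dodecads hu h)
    refine move_transport moveD_L moveD_fix certD_spec g.2 (fun σ hσ => hsupp σ ?_) hw
    have hg' : g.1 • (enc.finOf 340831 : Finset GolayPt) = support₂ u := hg
    rw [hg'] at hσ
    exact hσ
  · have hc' : u + allOne ∈ golayCode := add_mem hu allOne_mem
    have hs : support₂ (u + allOne) = (support₂ u)ᶜ := by
      ext a
      rw [mem_support₂, Finset.mem_compl, mem_support₂]
      have key : ∀ x : ZMod 2, x + 1 ≠ 0 ↔ ¬ x ≠ 0 := by decide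
      exact key (u a)
    have hcard : hammingNorm (u + allOne) = 8 := by
      rw [hammingNorm_eq, hs, Finset.card_compl]
      have : (support₂ u).card = 16 := h
      rw [this]
      rfl
    obtain ⟨g, hg⟩ := octads_transitive O0_octad (support_mem_octads hc' hcard)
    refine viaO g.1 g.2 fun σ hσ => ?_
    have hg' : g.1 • (enc.finOf O0 : Finset GolayPt) = support₂ (u + allOne) := hg
    rw [hg', ← support_permWord] at hσ
    have h2 := support_inj hσ
    have h3 : permWord σ (u + allOne) = permWord σ u + allOne := rfl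
    rw [h3] at h2
    have h4 := congrArg (fun z => z + allOne) h2
    simp only [add_assoc, add_self_word, add_zero] at h4
    exact h4
  · have hu1 : u = allOne := by
      funext a
      have h2 : support₂ u = Finset.univ := by
        apply Finset.eq_univ_of_card
        exact h.trans (by simp)
      have h3 : a ∈ support₂ u := by rw [h2]; exact Finset.mem_univ a
      rw [mem_support₂] at h3
      have key : ∀ x : ZMod 2, x ≠ 0 → x = 1 := by decide
      exact key _ h3
    refine viaO 1 M24.one_mem fun σ _ => ?_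
    rw [hu1]
    rfl

end Cfsg.Agent.Lib.M24
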