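import Cfsg.Agent.Lib.M24.OrbCerts
import Cfsg.Agent.Lib.M24.Coatom2
import Cfsg.Agent.Lib.M24.Orb2Data

/-!
# The orbits of a sextet stabiliser on the sextets and of a trio stabiliser on the trios
-/

set_option autoImplicit false
set_option linter.constructorNameAsVariable false

namespace Cfsg.Agent.Lib.M24

open Cfsg Cfsg.Agent.Lib.Compute Cfsg.Agent.Lib.Golay
open scoped Pointwise

theorem sSex_chk : descChk gS 1771 (fun f k k' => famEq f (sxT k) (sxT k') 6) [0, 39, 1, 9] (pget 11 2047 sSexPar) (pget 2 3 sSexGen) (pget 3 7 sSexDist) = true := by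
  decide +kernel

theorem sSex_nodup : (List.map (tblInv (sxT 0) 6 sxT 6) [0, 39, 1, 9]).Nodup := by decide +kernel

theorem sSex_count1 : countBelow (fun k => Nat.beq (tblInv (sxT 0) 6 sxT 6 k) (tblInv (sxT 0) 6 sxT 6 0)) 1771 = 1 := by
  decide +kernel

theorem sSex_count90 : countBelow (fun k => Nat.beq (tblInv (sxT 0) 6 sxT 6 k) (tblInv (sxT 0) 6 sxT 6 39)) 1771 = 90 := by
  decide +kernel

theorem sSex_count240 : countBelow (fun k => Nat.beq (tblInv (sxT 0) 6 sxT 6 k) (tblInv (sxT 0) 6 sxT 6 1)) 1771 = 240 := by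
  decide +kernel

theorem sSex_count1440 : countBelow (fun k => Nat.beq (tblInv (sxT 0) 6 sxT 6 k) (tblInv (sxT 0) 6 sxT 6 9)) 1771 = 1440 := by
  decide +kernel

theorem sextet_sextets0 : OrbDecomp4 (G := ↥M24) (famOf (sxT 0) 6) sextets 1 90 240 1440 :=
  cert4 sexTable sxBase (gens_of_fix sxBase Function.injective_id sTri_fix) sSex_chk (by norm_num) (by norm_num) (by norm_num) (by norm_num) sSex_nodup sSex_count1 sSex_count90 sSex_count240 sSex_count1440

theorem tTri_chk : descChk gT 3795 (fun f k k' => famEq f (trT k) (trT k') 3) [0, 1, 273, 16, 15] (pget 12 4095 tTriPar) (pget 2 3 tTriGen) (pget 4 15 tTriDist) = true := by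
  decide +kernel

theorem tTri_nodup : (List.map (tblInv (trT 0) 3 trT 3) [0, 1, 273, 16, 15]).Nodup := by decide +kernel

theorem tTri_count1 : countBelow (fun k => Nat.beq (tblInv (trT 0) 3 trT 3 k) (tblInv (trT 0) 3 trT 3 0)) 3795 = 1 := by
  decide +kernel

theorem tTri_count42 : countBelow (fun k => Nat.beq (tblInv (trT 0) 3 trT 3 k) (tblInv (trT 0) 3 trT 3 1)) 3795 = 42 := by
  decide +kernel

theorem tTri_count56 : countBelow (fun k => Nat.beq (tblInv (trT 0) 3 trT 3 k) (tblInv (trT 0) 3 trT 3 273)) 3795 = 56 := by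
  decide +kernel

theorem tTri_count1008 : countBelow (fun k => Nat.beq (tblInv (trT 0) 3 trT 3 k) (tblInv (trT 0) 3 trT 3 16)) 3795 = 1008 := by
  decide +kernel

theorem tTri_count2688 : countBelow (fun k => Nat.beq (tblInv (trT 0) 3 trT 3 k) (tblInv (trT 0) 3 trT 3 15)) 3795 = 2688 := by
  decide +kernel

theorem trio_trios0 : OrbDecomp5 (G := ↥M24) (famOf (trT 0) 3) trios 1 42 56 1008 2688 :=
  cert5 triTable trBase (gens_of_fix trBase Function.injective_id tOct_fix) tTri_chk (by norm_num) (by norm_num) (by norm_num) (by norm_num) (by norm_num) tTri_nodup tTri_count1 tTri_count42 tTri_count56 tTri_count1008 tTri_count2688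

theorem sextets_eq_orbit {S : Finset (Finset GolayPt)} (hS : S ∈ sextets) : MulAction.orbit ↥M24 S = sextets := by
  ext y
  constructor
  · rintro ⟨g, rfl⟩
    exact smul_mem_sextets g.2 hS
  · intro hy
    obtain ⟨g, hg⟩ := sextets_trans hS
    obtain ⟨g', hg'⟩ := sextets_trans hy
    exact ⟨g' * g⁻¹, by show (g' * g⁻¹) • S = y; rw [mul_smul, ← hg, inv_smul_smul, hg']⟩

theorem trios_eq_orbit {S : Finset (Finset GolayPt)} (hS : S ∈ trios) : MulAction.orbit ↥M24 S = trios := by
  ext y
  constructor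
  · rintro ⟨g, rfl⟩
    exact smul_mem_trios g.2 hS
  · intro hy
    obtain ⟨g, hg⟩ := trios_trans hS
    obtain ⟨g', hg'⟩ := trios_trans hy
    exact ⟨g' * g⁻¹, by show (g' * g⁻¹) • S = y; rw [mul_smul, ← hg, inv_smul_smul, hg']⟩

theorem sextet_decomp {S : Finset (Finset GolayPt)} (hS : S ∈ sextets) :
    OrbDecomp4 (G := ↥M24) S sextets 1 90 240 1440 := by
  obtain ⟨g, rfl⟩ := sextets_trans hS
  exact sextet_sextets0.smul (fun g _ hx => smul_mem_sextets g.2 hx) g

theorem trio_decomp {S : Finset (Finset GolayPt)} (hS : S ∈ trios) :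
    OrbDecomp5 (G := ↥M24) S trios 1 42 56 1008 2688 := by
  obtain ⟨g, rfl⟩ := trios_trans hS
  exact trio_trios0.smul (fun g _ hx => smul_mem_trios g.2 hx) g

theorem M24_finite : Finite ↥M24 := inferInstance

theorem sextet_coatom {S : Finset (Finset GolayPt)} (hS : S ∈ sextets) :
    IsCoatom (MulAction.stabilizer ↥M24 S) := by
  have h := sextet_decomp hS
  rw [← sextets_eq_orbit hS] at h
  exact coatom_of_decomp4 h (by decide) (by decide +kernel) (by norm_num)

theorem trio_coatom {S : Finset (Finset GolayPt)} (hS : S ∈ trios) :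
    IsCoatom (MulAction.stabilizer ↥M24 S) := by
  have h := trio_decomp hS
  rw [← trios_eq_orbit hS] at h
  exact coatom_of_decomp5 h (by decide) (by decide +kernel) (by norm_num)

end Cfsg.Agent.Lib.M24
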