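import Mathlib

/-!
# Data: the stabiliser of a quartet of the base dodecad
-/

namespace Cfsg.Agent.Lib.M24

/-- Generators of the stabiliser of the base quartet in the stabiliser of the base dodecad. -/
def gQ : List ℕ := [858974595659577142650802756149182498, 982224628547206897909838548245259688, 606431029635004802530866120811427112, 652430809178049276053503359921211910, 879378889112752590050416275375726893]
/-- Descent. -/
def gQPar : ℕ := 25414649179568197661404780819058637469797848530476829901525299420487976060027813825438233693140392342823649040727063700448435493253064047408388679424917653662044921038570114071074371138261644234041556412727525749969927424202435846836392132201542629705664559454317487567015304573749272344371094082155697553006180410092335028062479964291512982731382739392918283613135578685171508595932287240697661330520969039195115098532622735584242557298139570138006769680921677628847886622678599535662315392057540009358590918061234224476935159808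
/-- Descent. -/
def gQGen : ℕ := 2630813919037348386617241416291685943573946984032347345346896408565831809903540179965973945583404004249206342312918620857829704235736270804683918621134366819917010690974870223265060002701470578246656
/-- Descent. -/
def gQDist : ℕ := 2039658025406306735305149071616444351649391740747872862047071741639346120683500694574833736377686357033964080708719405208897926070187554426217778755814131795324896248185498574483216626585337921012744

end Cfsg.Agent.Lib.M24
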