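import Cfsg.Agent.Lib.M24.Quartet
import Cfsg.Agent.Lib.M24.QuartetOrbData

/-!
# The orbits of a quartet stabiliser on the quartets of a dodecad
-/

set_option autoImplicit false
set_option linter.constructorNameAsVariable false

namespace Cfsg.Agent.Lib.M24

open Cfsg Cfsg.Agent.Lib.Compute Cfsg.Agent.Lib.Golay
open scoped Pointwise

/-- The number of the base quartet in the table. -/
abbrev k0 : ℕ := 2

theorem zq_card {k : ℕ} (hk : k < 220) : (famOf (qT k) 4).card = 4 := (zq_mem hk).1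

/-- The base object. -/
noncomputable abbrev QB : Finset (Finset GolayPt) := zq k0

/-- The subgroup of interest at the base. -/
noncomputable abbrev SQ : Subgroup ↥M24 := MulAction.stabilizer ↥M24 (enc.finOf dM : Finset GolayPt) ⊓ MulAction.stabilizer ↥M24 QB

theorem gQ_ok : gQ.all (fun p => vld p && Nat.beq (imgMask (pc p) dM 24) dM && famEq (pc p) (qT k0) (qT k0) 4) = true := by
  decide +kernel

theorem gQ_mem : ∀ p ∈ gQ, ∃ hv : vld p = true, gOf hv ∈ SQ := by
  intro p hp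
  have h1 := List.all_eq_true.1 gQ_ok p hp
  simp only [Bool.and_eq_true] at h1
  obtain ⟨⟨hv, h2⟩, h3⟩ := h1
  refine ⟨hv, ?_, ?_⟩
  · show ppm p • (enc.finOf dM : Finset GolayPt) = _
    rw [img_finOf (vld_code hv), Nat.eq_of_beq_eq_true h2]
  · show ppm p • zq k0 = zq k0
    exact famEq_spec (vld_code hv) h3 le_rfl

/-- The list of roots. -/
abbrev qRoots : List ℕ := [0, 2, 4, 5, 6]

theorem qDesc : descChk gQ 220 (fun f k k' => famEq f (qT k) (qT k') 4) qRoots (pget 8 255 gQPar) (pget 3 7 gQGen)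
    (pget 3 7 gQDist) = true := by decide +kernel

theorem zq_act (σ : ↥M24) (f : ℕ → ℕ) (hf : enc.IsCode σ.1 f) (k k' : ℕ) (hk : k < 220)
    (h : famEq f (qT k) (qT k') 4 = true) : σ • zq k = zq k' :=
  famEq_spec hf h (by rw [zq_card hk]; exact Finset.card_image_le.trans (by simp))

theorem qDescent : ∀ k, k < 220 → ∃ r ∈ qRoots, ∃ σ ∈ SQ, σ • zq k = zq r :=
  desc_sub zq_act gQ_mem qDesc

/-- The invariant of a row. -/
noncomputable def qInv (k : ℕ) : ℕ := famInvN (qT k0) 4 (qT k) 4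

theorem qInv_smul (σ : ↥M24) (hσ : σ ∈ SQ) (k k' : ℕ) (hk : k < 220) (hk' : k' < 220) (h : σ • zq k = zq k') :
    qInv k = qInv k' := by
  unfold qInv
  rw [← famInvA_table (zq_card (by norm_num)) (zq_card hk), ← famInvA_table (zq_card (by norm_num)) (zq_card hk')]
  have h1 : (σ.1 • zq k0) = zq k0 := hσ.2
  have h2 : σ.1 • zq k = zq k' := h
  show famInvA (zq k0) (zq k) = famInvA (zq k0) (zq k')
  rw [← h2]
  conv_rhs => rw [← h1]
  rw [famInvA_smul]

theorem qNodup : (qRoots.map qInv).Nodup := by decide +kernel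

theorem qClosed (σ : ↥M24) (hσ : σ ∈ SQ) (k : ℕ) (hk : k < 220) : ∃ k', k' < 220 ∧ σ • zq k = zq k' := by
  have h1 : σ • zq k ∈ quartets (enc.finOf dM) := by
    have := smul_mem_quartets σ (zq_mem hk)
    rwa [show σ • (enc.finOf dM : Finset GolayPt) = enc.finOf dM from hσ.1] at this
  obtain ⟨k', hk', e⟩ := quartet_in_table h1
  exact ⟨k', hk', e⟩

/-- An orbit is a class of the invariant. -/
theorem qOrbit {r : ℕ} (hr : r ∈ qRoots) (hr' : r < 220) :
    MulAction.orbit ↥SQ (zq r) = zq '' {k | k < 220 ∧ qInv k = qInv r} := by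
  ext y
  constructor
  · rintro ⟨σ, rfl⟩
    obtain ⟨k', hk', h⟩ := qClosed σ.1 σ.2 r hr'
    exact ⟨k', ⟨hk', (qInv_smul σ.1 σ.2 r k' hr' hk' h).symm⟩, h.symm⟩
  · rintro ⟨k, ⟨hk, hi⟩, rfl⟩
    obtain ⟨r', hr1, σ, hσ, e⟩ := qDescent k hk
    have hr1' : r' < 220 := by
      have : ∀ r ∈ qRoots, r < 220 := by decide
      exact this r' hr1
    have h1 := qInv_smul σ hσ k r' hk hr1' e
    have h2 : r' = r := List.inj_on_of_nodup_map qNodup hr1 hr (h1.symm.trans hi)
    subst h2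
    refine ⟨⟨σ, hσ⟩⁻¹, ?_⟩
    show σ⁻¹ • zq r' = zq k
    rw [← e, inv_smul_smul]

theorem qOrbit_ncard {r : ℕ} (hr : r ∈ qRoots) (hr' : r < 220) :
    (MulAction.orbit ↥SQ (zq r)).ncard = countBelow (fun k => Nat.beq (qInv k) (qInv r)) 220 := by
  rw [qOrbit hr hr', ncard_image_filter (fun a b ha hb h => zq_inj ha hb h)]

theorem qCount : countBelow (fun k => Nat.beq (qInv k) (qInv 0)) 220 = 12 ∧
    countBelow (fun k => Nat.beq (qInv k) (qInv 5)) 220 = 27 ∧
    countBelow (fun k => Nat.beq (qInv k) (qInv 6)) 220 = 72 ∧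
    countBelow (fun k => Nat.beq (qInv k) (qInv 4)) 220 = 108 ∧
    countBelow (fun k => Nat.beq (qInv k) (qInv k0)) 220 = 1 := by decide +kernel

theorem mem_rootsQ : 0 ∈ qRoots ∧ 5 ∈ qRoots ∧ 6 ∈ qRoots ∧ 4 ∈ qRoots ∧ k0 ∈ qRoots := by decide

/-- The orbit of the base quartet. -/
theorem qOrbit_base : MulAction.orbit ↥SQ (zq k0) = {zq k0} := by
  ext y
  constructor
  · rintro ⟨σ, rfl⟩
    exact σ.2.2
  · intro hy
    rw [Set.mem_singleton_iff.1 hy]
    exact MulAction.mem_orbit_self _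

/-- The orbits at the base. -/
theorem quartet_base_union : quartets (enc.finOf dM) = {zq k0} ∪ MulAction.orbit ↥SQ (zq 0) ∪ MulAction.orbit ↥SQ (zq 5) ∪
    MulAction.orbit ↥SQ (zq 6) ∪ MulAction.orbit ↥SQ (zq 4) := by
  obtain ⟨m1, m2, m3, m4, m0⟩ := mem_rootsQ
  ext y
  constructor
  · intro hy
    obtain ⟨k, hk, rfl⟩ := quartet_in_table hy
    obtain ⟨r, hr, σ, hσ, e⟩ := qDescent k hk
    have h5 : zq k ∈ MulAction.orbit ↥SQ (zq r) := ⟨⟨σ, hσ⟩⁻¹, by
      show σ⁻¹ • zq r = zq k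
      rw [← e, inv_smul_smul]⟩
    simp only [qRoots, List.mem_cons, List.not_mem_nil, or_false] at hr
    simp only [Set.mem_union, Set.mem_singleton_iff]
    rcases hr with rfl | rfl | rfl | rfl | rfl
    · exact Or.inl (Or.inl (Or.inl (Or.inr h5)))
    · exact Or.inl (Or.inl (Or.inl (Or.inl (by rw [qOrbit_base] at h5; exact h5))))
    · exact Or.inr h5
    · exact Or.inl (Or.inl (Or.inr h5))
    · exact Or.inl (Or.inr h5)
  · intro hy
    simp only [Set.mem_union, Set.mem_singleton_iff] at hy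
    have h0 : ∀ r, r < 220 → y ∈ MulAction.orbit ↥SQ (zq r) → y ∈ quartets (enc.finOf dM) := by
      rintro r hr ⟨σ, rfl⟩
      have := smul_mem_quartets σ.1 (zq_mem hr)
      rwa [show σ.1 • (enc.finOf dM : Finset GolayPt) = enc.finOf dM from σ.2.1] at this
    rcases hy with (((rfl | h) | h) | h) | h
    · exact zq_mem (by norm_num)
    · exact h0 _ (by norm_num) h
    · exact h0 _ (by norm_num) h
    · exact h0 _ (by norm_num) h
    · exact h0 _ (by norm_num) h

section transport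

variable {G W Z : Type*} [Group G] [MulAction G W] [MulAction G Z] {W' : Type*} [MulAction G W']

/-- Conjugating the stabiliser of two objects. -/
theorem orbit_inf_smul (g : G) (w : W) (w' : W') (z : Z) :
    MulAction.orbit ↥(MulAction.stabilizer G (g • w) ⊓ MulAction.stabilizer G (g • w')) (g • z) =
      (fun y => g • y) '' MulAction.orbit ↥(MulAction.stabilizer G w ⊓ MulAction.stabilizer G w') z := by
  ext y
  constructor
  · rintro ⟨⟨s, hs, hs'⟩, rfl⟩
    have h0 : s • g • w = g • w := hs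
    have h0' : s • g • w' = g • w' := hs'
    have h1 : g⁻¹ * s * g ∈ MulAction.stabilizer G w ⊓ MulAction.stabilizer G w' := by
      refine ⟨?_, ?_⟩
      · show (g⁻¹ * s * g) • w = w
        rw [mul_smul, mul_smul, h0, inv_smul_smul]
      · show (g⁻¹ * s * g) • w' = w'
        rw [mul_smul, mul_smul, h0', inv_smul_smul]
    refine ⟨g⁻¹ • (s • g • z), ⟨⟨g⁻¹ * s * g, h1⟩, ?_⟩, ?_⟩
    · show (g⁻¹ * s * g) • z = _
      rw [mul_smul, mul_smul]
    · show g • g⁻¹ • (s • g • z) = s • g • z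
      rw [smul_inv_smul]
  · rintro ⟨_, ⟨⟨s, hs, hs'⟩, rfl⟩, rfl⟩
    have h0 : s • w = w := hs
    have h0' : s • w' = w' := hs'
    have h1 : g * s * g⁻¹ ∈ MulAction.stabilizer G (g • w) ⊓ MulAction.stabilizer G (g • w') := by
      refine ⟨?_, ?_⟩
      · show (g * s * g⁻¹) • g • w = g • w
        rw [mul_smul, mul_smul, inv_smul_smul, h0]
      · show (g * s * g⁻¹) • g • w' = g • w'
        rw [mul_smul, mul_smul, inv_smul_smul, h0']
    refine ⟨⟨g * s * g⁻¹, h1⟩, ?_⟩
    show (g * s * g⁻¹) • g • z = g • (s • z)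
    rw [mul_smul, mul_smul, inv_smul_smul]

end transport

/-- Normal form of a quartet of a dodecad. -/
theorem exists_quartet_normal {d : Finset GolayPt} (hd : d ∈ dodecads) {Q : Finset (Finset GolayPt)} (hQ : Q ∈ quartets d) :
    ∃ g : ↥M24, g • (enc.finOf dM : Finset GolayPt) = d ∧ g • zq k0 = Q := by
  obtain ⟨g, hg⟩ := dodecads_transitive D0_mem hd
  have hg' : g • (enc.finOf dM : Finset GolayPt) = d := hg
  have h1 : g • zq k0 ∈ quartets d := by
    rw [← hg']
    exact smul_mem_quartets g (zq_mem (by norm_num))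
  obtain ⟨h, h2, h3⟩ := quartets_transitive hd h1 hQ
  refine ⟨h * g, ?_, ?_⟩
  · rw [mul_smul, hg', h2]
  · rw [mul_smul, h3]

theorem ncard_quartet_orbit (g : ↥M24) (r : ℕ) (n : ℕ) (h : (MulAction.orbit ↥SQ (zq r)).ncard = n) :
    (MulAction.orbit ↥(MulAction.stabilizer ↥M24 (g • (enc.finOf dM : Finset GolayPt)) ⊓ MulAction.stabilizer ↥M24 (g • QB)) (g • zq r)).ncard = n := by
  rw [orbit_inf_smul, Set.ncard_image_of_injective _ (MulAction.injective g), h]

end Cfsg.Agent.Lib.M24
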