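import Cfsg.Agent.Lib.M24.FamRes
import Cfsg.Agent.Lib.M24.Orb2
import Cfsg.Agent.Lib.M24.SexData
import Cfsg.Agent.Lib.M24.Enum
import Cfsg.Agent.Lib.Golay.Orbit

/-!
# The stabiliser of a sextet
-/

set_option autoImplicit false
set_option linter.constructorNameAsVariable false

namespace Cfsg.Agent.Lib.M24

open Cfsg Cfsg.Agent.Lib.Compute Cfsg.Agent.Lib.Golay
open scoped Pointwise

theorem ncard_sextets : sextets.ncard = 1771 := by
  have h := ncard_table (A := sextets) (elt := sxS) (K := 1771)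
      (fun _ => mem_sextets_iff)
      (fun _ _ ha hb h => sxS_injOn ha hb h) (fun _ => True) (fun _ => true) (fun _ _ => by simp)
  simp only [and_true] at h
  rw [show {x | x ∈ sextets} = sextets from rfl] at h
  rw [h]
  decide +kernel

theorem card_stabilizer_sextet {S : Finset (Finset GolayPt)} (hS : S ∈ sextets) :
    Nat.card (MulAction.stabilizer ↥M24 S) = 138240 :=
  card_stabilizer_of_orbit S 1771 (by rw [sextets_eq_orbit hS, ncard_sextets]) (by norm_num) _ (by norm_num)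

/-! ### The action on the tetrads of the base sextet -/

theorem sxT0_inj : ∀ a, a < 6 → ∀ b, b < 6 → sxT 0 a = sxT 0 b → a = b := by decide +kernel

theorem sxT0_lt (k : ℕ) : sxT 0 k < 2 ^ 24 := sxT_lt 0 k

theorem sxS0_mem (j : ℕ) (hj : j < 6) : (enc.finOf (sxT 0 j) : Finset GolayPt) ∈ sxS 0 :=
  Finset.mem_image.2 ⟨j, Finset.mem_range.2 hj, rfl⟩

/-- The numbering of the tetrads of the base sextet. -/
noncomputable def sxEnum : Fin 6 ≃ ↥(sxS 0) :=
  Equiv.ofBijective (fun j => ⟨enc.finOf (sxT 0 j), sxS0_mem j j.2⟩) (by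
    constructor
    · intro a b h
      have h1 : (enc.finOf (sxT 0 a) : Finset GolayPt) = enc.finOf (sxT 0 b) := congrArg Subtype.val h
      exact Fin.ext (sxT0_inj _ a.2 _ b.2 (enc.finOf_injOn (sxT0_lt _) (sxT0_lt _) h1))
    · rintro ⟨t, ht⟩
      obtain ⟨j, hj, rfl⟩ := Finset.mem_image.1 ht
      exact ⟨⟨j, Finset.mem_range.1 hj⟩, rfl⟩)

theorem sxEnum_val (j : Fin 6) : (sxEnum j : Finset GolayPt) = enc.finOf (sxT 0 j) := rfl

theorem sgRot_ok : vld sgRot = true ∧ ∀ j, j < 6 → imgMask (pc sgRot) (sxT 0 j) 24 = sxT 0 ((j + 1) % 6) := by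
  decide +kernel

theorem sgSwap_ok : vld sgSwap = true ∧ ∀ j, j < 6 → imgMask (pc sgSwap) (sxT 0 j) 24 = sxT 0 (bcond (Nat.beq j 0) 1 (bcond (Nat.beq j 1) 0 j)) := by
  decide +kernel

/-- An element of the stabiliser of the base sextet from a permutation of the numbers of its tetrads. -/
theorem exists_stab_of_perm {p : ℕ} (hv : vld p = true) (π : Equiv.Perm (Fin 6))
    (h : ∀ j : Fin 6, imgMask (pc p) (sxT 0 j) 24 = sxT 0 (π j)) :
    ∃ x : ↥(MulAction.stabilizer ↥M24 (sxS 0)), famRes (sxS 0) x = sxEnum.permCongr π := by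
  have hact : ∀ j : Fin 6, (⟨ppm p, vld_mem hv⟩ : ↥M24) • (enc.finOf (sxT 0 j) : Finset GolayPt) = enc.finOf (sxT 0 (π j)) := by
    intro j
    show ppm p • (enc.finOf (sxT 0 j) : Finset GolayPt) = _
    rw [img_finOf (vld_code hv), h j]
  have hs : (⟨ppm p, vld_mem hv⟩ : ↥M24) • sxS 0 = sxS 0 := by
    apply Finset.eq_of_subset_of_card_le
    · intro t ht
      obtain ⟨u, hu, rfl⟩ := Finset.mem_smul_finset.1 ht
      obtain ⟨j, hj, rfl⟩ := Finset.mem_image.1 hu
      have := hact ⟨j, Finset.mem_range.1 hj⟩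
      show (⟨ppm p, vld_mem hv⟩ : ↥M24) • (enc.finOf (sxT 0 j) : Finset GolayPt) ∈ _
      rw [this]
      exact sxS0_mem _ (π _).2
    · rw [Finset.card_smul_finset]
  refine ⟨⟨⟨ppm p, vld_mem hv⟩, hs⟩, ?_⟩
  refine Equiv.ext fun t => Subtype.ext ?_
  obtain ⟨j, rfl⟩ := sxEnum.surjective t
  rw [famRes_apply]
  show (⟨ppm p, vld_mem hv⟩ : ↥M24) • (enc.finOf (sxT 0 j) : Finset GolayPt) = _
  rw [hact j]
  simp [Equiv.permCongr_apply, sxEnum_val]

theorem closure_rot_swap : Subgroup.closure ({finRotate 6, Equiv.swap 0 1} : Set (Equiv.Perm (Fin 6))) = ⊤ := by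
  have h := Equiv.Perm.closure_cycle_adjacent_swap (isCycle_finRotate (n := 4)) (by
    ext x
    simp [support_finRotate]) (0 : Fin 6)
  simpa using h

/-- The stabiliser of the base sextet induces every permutation of the tetrads. -/
theorem sxS0_surj : Function.Surjective (famRes (G := ↥M24) (sxS 0)) := by
  obtain ⟨hv1, h1⟩ := sgRot_ok
  obtain ⟨hv2, h2⟩ := sgSwap_ok
  obtain ⟨x1, hx1⟩ := exists_stab_of_perm hv1 (finRotate 6) (by
    intro j
    rw [h1 j j.2]
    congr 1
    fin_cases j <;> rfl)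
  obtain ⟨x2, hx2⟩ := exists_stab_of_perm hv2 (Equiv.swap 0 1) (by
    intro j
    rw [h2 j j.2]
    congr 1
    fin_cases j <;> rfl)
  let U : Subgroup (Equiv.Perm (Fin 6)) := (famRes (G := ↥M24) (sxS 0)).range.comap (sxEnum.permCongrHom).toMonoidHom
  have hU : U = ⊤ := by
    rw [eq_top_iff, ← closure_rot_swap, Subgroup.closure_le]
    rintro y (rfl | rfl)
    · exact ⟨x1, hx1⟩
    · exact ⟨x2, hx2⟩
  intro e
  have h3 : sxEnum.permCongr (sxEnum.symm.permCongr e) ∈ (famRes (G := ↥M24) (sxS 0)).range := by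
    have : sxEnum.symm.permCongr e ∈ U := by rw [hU]; trivial
    exact this
  obtain ⟨x, hx⟩ := h3
  refine ⟨x, ?_⟩
  rw [hx]
  exact Equiv.ext fun t => by simp [Equiv.permCongr_apply]

theorem sextet_surj {S : Finset (Finset GolayPt)} (hS : S ∈ sextets) : Function.Surjective (famRes (G := ↥M24) S) := by
  obtain ⟨g, rfl⟩ := sextets_trans hS
  exact famRes_surj_smul g sxS0_surj

theorem card_perm_sextet {S : Finset (Finset GolayPt)} (hS : S ∈ sextets) : Nat.card (Equiv.Perm ↥S) = 720 := by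
  rw [Nat.card_eq_fintype_card, Fintype.card_perm, Fintype.card_coe, hS.1]
  rfl

theorem card_ker_sextet {S : Finset (Finset GolayPt)} (hS : S ∈ sextets) : Nat.card (famRes (G := ↥M24) S).ker = 192 := by
  have h := card_ker_of_surj (sextet_surj hS)
  rw [card_stabilizer_sextet hS, card_perm_sextet hS] at h
  omega

/-! ### The elements of the kernel -/

/-- A packed element fixing all the tetrads of the base sextet. -/
noncomputable def sxFix (p : ℕ) : Bool := vld p && allBelow (fun j => Nat.beq (imgMask (pc p) (sxT 0 j) 24) (sxT 0 j)) 6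

theorem sxK64_fix : sxK64.all sxFix = true := by decide +kernel
theorem sxK128_fix : sxK128.all sxFix = true := by decide +kernel

theorem sxFix_vld {p : ℕ} (h : sxFix p = true) : vld p = true := by
  simp only [sxFix, Bool.and_eq_true] at h
  exact h.1

/-- The kernel element of a packed element. -/
theorem sxFix_ker {p : ℕ} (h : sxFix p = true) : ∃ x ∈ (famRes (G := ↥M24) (sxS 0)).ker, (x : ↥M24).1 = ppm p := by
  simp only [sxFix, Bool.and_eq_true] at h
  obtain ⟨hv, h2⟩ := h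
  have hact : ∀ t ∈ sxS 0, (⟨ppm p, vld_mem hv⟩ : ↥M24) • t = t := by
    intro t ht
    obtain ⟨j, hj, rfl⟩ := Finset.mem_image.1 ht
    show ppm p • (enc.finOf (sxT 0 j) : Finset GolayPt) = _
    rw [img_finOf (vld_code hv), Nat.eq_of_beq_eq_true ((allBelow_iff _ _).1 h2 j (Finset.mem_range.1 hj))]
  have hs : (⟨ppm p, vld_mem hv⟩ : ↥M24) • sxS 0 = sxS 0 := by
    ext t
    rw [Finset.mem_smul_finset]
    constructor
    · rintro ⟨u, hu, rfl⟩
      show (⟨ppm p, vld_mem hv⟩ : ↥M24) • u ∈ _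
      rw [hact u hu]
      exact hu
    · intro ht
      exact ⟨t, ht, hact t ht⟩
  exact ⟨⟨⟨ppm p, vld_mem hv⟩, hs⟩, mem_famRes_ker.2 hact, rfl⟩

/-- The image of a subgroup of a stabiliser in the symmetric group. -/
theorem ncard_image_sub {H : Subgroup ↥(MulAction.stabilizer ↥M24 (sxS 0))} :
    ((fun x : ↥(MulAction.stabilizer ↥M24 (sxS 0)) => (x : ↥M24).1) '' (H : Set _)).ncard = Nat.card H := by
  rw [Set.ncard_image_of_injective]
  · rfl
  · intro a b h
    exact Subtype.ext (Subtype.ext h)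

theorem sx_keys : ((sxK64 ++ sxK128).map fun p => keyOf (pc p)).Nodup := by decide +kernel

theorem sxK_len : (sxK64 ++ sxK128).length = 192 := by decide +kernel

/-- Every element of the kernel is listed. -/
theorem sxk_cover {x : ↥(MulAction.stabilizer ↥M24 (sxS 0))} (hx : x ∈ (famRes (G := ↥M24) (sxS 0)).ker) :
    ∃ p ∈ sxK64 ++ sxK128, (x : ↥M24).1 = ppm p := by
  classical
  have hall : ∀ p ∈ sxK64 ++ sxK128, sxFix p = true := by
    intro p hp
    rcases List.mem_append.1 hp with h | h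
    · exact List.all_eq_true.1 sxK64_fix p h
    · exact List.all_eq_true.1 sxK128_fix p h
  let A : Set (Equiv.Perm GolayPt) := ppm '' ((sxK64 ++ sxK128).toFinset : Set ℕ)
  have hA := card_of_list (A := A) (L := sxK64 ++ sxK128) (fun p hp => sxFix_vld (hall p hp))
    (fun p hp => ⟨p, by simpa using hp, rfl⟩)
    (fun σ hσ => by
      obtain ⟨p, hp, rfl⟩ := hσ
      exact ⟨p, by simpa using hp, rfl⟩) sx_keys
  rw [sxK_len] at hA
  let B : Set (Equiv.Perm GolayPt) := (fun x : ↥(MulAction.stabilizer ↥M24 (sxS 0)) => (x : ↥M24).1) '' ((famRes (G := ↥M24) (sxS 0)).ker : Set _)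
  have hB : B.ncard = 192 := by
    rw [ncard_image_sub, card_ker_sextet (sxS_mem_sextets (by norm_num))]
  have hsub : A ⊆ B := by
    rintro _ ⟨p, hp, rfl⟩
    obtain ⟨y, hy, hye⟩ := sxFix_ker (hall p (by simpa using hp))
    exact ⟨y, hy, hye⟩
  have hEq : A = B := Set.eq_of_subset_of_ncard_le hsub (by rw [hA, hB]) (Set.toFinite _)
  have hxB : (x : ↥M24).1 ∈ B := ⟨x, hx, rfl⟩
  rw [← hEq] at hxB
  obtain ⟨p, hp, hpe⟩ := hxB
  exact ⟨p, by simpa using hp, hpe.symm⟩

theorem sxK64_sq : sxK64.all (fun p => sqId (pc p)) = true := by decide +kernel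
theorem sxK128_sq : sxK128.all (fun p => !(sqId (pc p))) = true := by decide +kernel
theorem sxK64_pairs : sxK64.all (fun p => sxK64.all fun q => sqId fun i => pc p (pc q i)) = true := by decide +kernel

theorem sx_invol_list {x : ↥(MulAction.stabilizer ↥M24 (sxS 0))} (hx : x ∈ (famRes (G := ↥M24) (sxS 0)).ker) (h2 : x * x = 1) :
    ∃ p ∈ sxK64, (x : ↥M24).1 = ppm p := by
  obtain ⟨p, hp, hpe⟩ := sxk_cover hx
  rcases List.mem_append.1 hp with h | h
  · exact ⟨p, h, hpe⟩
  · exfalso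
    have hv := sxFix_vld (List.all_eq_true.1 sxK128_fix p h)
    have h3 := List.all_eq_true.1 sxK128_sq p h
    have h4 : ppm p * ppm p = 1 := by
      rw [← hpe]
      have h5 := congrArg (fun z : ↥(MulAction.stabilizer ↥M24 (sxS 0)) => (z : ↥M24).1) h2
      exact h5
    have h6 := (sqId_iff (vld_code hv)).2 h4
    rw [h6] at h3
    exact Bool.noConfusion h3

/-- The normal subgroup. -/
noncomputable def sxN0 : Subgroup ↥(MulAction.stabilizer ↥M24 (sxS 0)) where
  carrier := {x | x ∈ (famRes (G := ↥M24) (sxS 0)).ker ∧ x * x = 1}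
  one_mem' := ⟨Subgroup.one_mem _, mul_one 1⟩
  inv_mem' := by
    rintro x ⟨h1, h2⟩
    refine ⟨Subgroup.inv_mem _ h1, ?_⟩
    rw [← mul_inv_rev, h2, inv_one]
  mul_mem' := by
    rintro x y ⟨h1, h2⟩ ⟨h3, h4⟩
    refine ⟨Subgroup.mul_mem _ h1 h3, ?_⟩
    obtain ⟨p, hp, hpe⟩ := sx_invol_list h1 h2
    obtain ⟨q, hq, hqe⟩ := sx_invol_list h3 h4
    have hvp := sxFix_vld (List.all_eq_true.1 sxK64_fix p hp)
    have hvq := sxFix_vld (List.all_eq_true.1 sxK64_fix q hq)
    have h5 := List.all_eq_true.1 (List.all_eq_true.1 sxK64_pairs p hp) q hq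
    have h6 := (sqId_iff (isCode_mul (vld_code hvp) (vld_code hvq))).1 h5
    apply Subtype.ext
    apply Subtype.ext
    show (x : ↥M24).1 * (y : ↥M24).1 * ((x : ↥M24).1 * (y : ↥M24).1) = 1
    rw [hpe, hqe]
    exact h6

theorem sxN0_normal : sxN0.Normal := by
  constructor
  rintro x ⟨h1, h2⟩ g
  refine ⟨Subgroup.Normal.conj_mem inferInstance x h1 g, ?_⟩
  have : g * x * g⁻¹ * (g * x * g⁻¹) = g * (x * x) * g⁻¹ := by group
  rw [this, h2]
  group

theorem sxN0_card : Nat.card sxN0 = 64 := by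
  have h := card_of_list (A := (fun x : ↥(MulAction.stabilizer ↥M24 (sxS 0)) => (x : ↥M24).1) '' (sxN0 : Set _)) (L := sxK64)
    (fun p hp => sxFix_vld (List.all_eq_true.1 sxK64_fix p hp))
    (fun p hp => by
      obtain ⟨x, hx, hxe⟩ := sxFix_ker (List.all_eq_true.1 sxK64_fix p hp)
      have hv := sxFix_vld (List.all_eq_true.1 sxK64_fix p hp)
      refine ⟨x, ⟨hx, ?_⟩, hxe⟩
      apply Subtype.ext
      apply Subtype.ext
      show (x : ↥M24).1 * (x : ↥M24).1 = 1
      rw [hxe]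
      exact (sqId_iff (vld_code hv)).1 (List.all_eq_true.1 sxK64_sq p hp))
    (fun σ hσ => by
      obtain ⟨x, ⟨h1, h2⟩, rfl⟩ := hσ
      exact sx_invol_list h1 h2)
    (by
      have := sx_keys
      rw [List.map_append] at this
      exact (List.nodup_append.1 this).1)
  rw [ncard_image_sub] at h
  rw [h]
  decide +kernel

theorem sextet_normal {S : Finset (Finset GolayPt)} (hS : S ∈ sextets) :
    ∃ N : Subgroup ↥(MulAction.stabilizer ↥M24 S), N.Normal ∧ Nat.card N = 64 ∧ ∀ y ∈ N, y * y = 1 := by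
  obtain ⟨g, rfl⟩ := sextets_trans hS
  exact exists_normal_smul g _ ⟨sxN0, sxN0_normal, sxN0_card, fun y hy => hy.2⟩

/-- Structure of a sextet stabiliser. -/
theorem sextet_structure {S : Finset (Finset GolayPt)} (hS : S ∈ sextets) :
    (∀ e : Equiv.Perm ↥S, ∃ g ∈ MulAction.stabilizer M24 S, ∀ t : ↥S, (g : Equiv.Perm GolayPt) • (t : Finset GolayPt) = ((e t : ↥S) : Finset GolayPt)) ∧
    Nat.card {g : ↥(MulAction.stabilizer M24 S) // ∀ t ∈ S, ((g : M24) : Equiv.Perm GolayPt) • t = t} = 192 ∧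
    ∃ N : Subgroup ↥(MulAction.stabilizer M24 S), N.Normal ∧ Nat.card N = 64 ∧ ∀ x ∈ N, x * x = 1 := by
  refine ⟨fun e => ?_, ?_, sextet_normal hS⟩
  · obtain ⟨x, hx⟩ := sextet_surj hS e
    refine ⟨x.1, x.2, fun t => ?_⟩
    have := congrArg (fun f : Equiv.Perm ↥S => ((f t : ↥S) : Finset GolayPt)) hx
    exact this
  · rw [← card_ker_sextet hS]
    apply Nat.card_congr
    exact
      { toFun := fun g => ⟨g.1, mem_famRes_ker.2 g.2⟩
        invFun := fun g => ⟨g.1, mem_famRes_ker.1 g.2⟩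
        left_inv := fun _ => rfl
        right_inv := fun _ => rfl }

end Cfsg.Agent.Lib.M24
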