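import Cfsg.Agent.Lib.M24.FamRes
import Cfsg.Agent.Lib.M24.Orb2
import Cfsg.Agent.Lib.M24.TrioData
import Cfsg.Agent.Lib.M24.Enum
import Cfsg.Agent.Lib.Golay.Orbit

/-!
# The stabiliser of a trio
-/

set_option autoImplicit false
set_option linter.constructorNameAsVariable false

namespace Cfsg.Agent.Lib.M24

open Cfsg Cfsg.Agent.Lib.Compute Cfsg.Agent.Lib.Golay
open scoped Pointwise

theorem ncard_trios : trios.ncard = 3795 := by
  have h := ncard_table (A := trios) (elt := trS) (K := 3795)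
      (fun _ => mem_trios_iff)
      (fun _ _ ha hb h => trS_injOn ha hb h) (fun _ => True) (fun _ => true) (fun _ _ => by simp)
  simp only [and_true] at h
  rw [show {x | x ∈ trios} = trios from rfl] at h
  rw [h]
  decide +kernel

theorem card_stabilizer_trio {S : Finset (Finset GolayPt)} (hS : S ∈ trios) :
    Nat.card (MulAction.stabilizer ↥M24 S) = 64512 :=
  card_stabilizer_of_orbit S 3795 (by rw [trios_eq_orbit hS, ncard_trios]) (by norm_num) _ (by norm_num)

/-- The abbreviation for the base trio stabiliser. -/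
noncomputable abbrev HT : Subgroup ↥M24 := MulAction.stabilizer ↥M24 (trS 0)

/-- The three-dimensional space. -/
abbrev V3 : Type := Fin 3 → ZMod 2

/-- The code of a vector. -/
def v3code (v : V3) : ℕ := (v 0).val + 2 * (v 1).val + 4 * (v 2).val

theorem v3code_lt : ∀ v, v3code v < 8 := by decide +kernel
theorem v3code_inj : ∀ u v, v3code u = v3code v → u = v := by decide +kernel
theorem v3code_add : ∀ u v, v3code (u + v) = Nat.xor (v3code u) (v3code v) := by decide +kernel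
theorem v3code_zero : ∀ v, v3code v = 0 ↔ v = 0 := by decide +kernel
theorem v3code_surj : ∀ n, n < 8 → ∃ v, v3code v = n := by decide +kernel

/-- The number of the refining sextet with the given code. -/
noncomputable def rIdx (n : ℕ) : ℕ := pget 11 2047 rfData n

/-- The family of the vector with a given code. -/
noncomputable def rfZ (n : ℕ) : Finset (Finset GolayPt) := bcond (Nat.beq n 0) ∅ (sxS (rIdx n))

theorem rfZ_zero : rfZ 0 = ∅ := rfl

theorem rfZ_pos {n : ℕ} (h : n ≠ 0) : rfZ n = sxS (rIdx n) := by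
  have : Nat.beq n 0 = false := by
    cases h2 : Nat.beq n 0
    · rfl
    · exact absurd (Nat.eq_of_beq_eq_true h2) h
  rw [rfZ, this]
  rfl

theorem rIdx_data : allBelow (fun n => Nat.blt (rIdx (n + 1)) 1771) 7 = true := by decide +kernel
theorem rIdx_inj : allBelow (fun n => allBelow (fun m => !(Nat.beq (rIdx (n + 1)) (rIdx (m + 1))) || Nat.beq n m) 7) 7 = true := by
  decide +kernel

theorem rIdx_lt {n : ℕ} (h0 : n ≠ 0) (h8 : n < 8) : rIdx n < 1771 := by
  obtain ⟨m, rfl⟩ := Nat.exists_eq_succ_of_ne_zero h0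
  have := (allBelow_iff _ _).1 rIdx_data m (by omega)
  simpa [Nat.blt_eq] using this

theorem rfZ_inj {n m : ℕ} (hn : n < 8) (hm : m < 8) (h : rfZ n = rfZ m) : n = m := by
  by_cases h0 : n = 0
  · by_cases h1 : m = 0
    · omega
    · exfalso
      subst h0
      rw [rfZ_zero, rfZ_pos h1] at h
      have h2 : (sxS (rIdx m)).card = 6 := (sxS_mem_sextets (rIdx_lt h1 hm)).1
      rw [← h] at h2
      simp at h2
  · by_cases h1 : m = 0
    · exfalso
      subst h1
      rw [rfZ_zero, rfZ_pos h0] at h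
      have h2 : (sxS (rIdx n)).card = 6 := (sxS_mem_sextets (rIdx_lt h0 hn)).1
      rw [h] at h2
      simp at h2
    · rw [rfZ_pos h0, rfZ_pos h1] at h
      have h2 := sxS_injOn (rIdx_lt h0 hn) (rIdx_lt h1 hm) h
      obtain ⟨a, rfl⟩ := Nat.exists_eq_succ_of_ne_zero h0
      obtain ⟨b, rfl⟩ := Nat.exists_eq_succ_of_ne_zero h1
      have h3 := (allBelow_iff _ _).1 ((allBelow_iff _ _).1 rIdx_inj a (by omega)) b (by omega)
      have h4 : Nat.beq (rIdx (a + 1)) (rIdx (b + 1)) = true := by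
        show Nat.beq (rIdx (a + 1)) (rIdx (b + 1)) = true
        rw [show rIdx (a + 1) = rIdx (b + 1) from h2]
        exact Nat.beq_refl _
      rw [h4] at h3
      simp only [Bool.not_true, Bool.false_or] at h3
      rw [Nat.eq_of_beq_eq_true h3]

/-- The family of a vector. -/
noncomputable def zs (v : V3) : Finset (Finset GolayPt) := rfZ (v3code v)

theorem zs_inj {u v : V3} (h : zs u = zs v) : u = v :=
  v3code_inj u v (rfZ_inj (v3code_lt u) (v3code_lt v) h)

/-! ### Refining sextets -/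

/-- A family refines a family. -/
def trRef (T S : Finset (Finset GolayPt)) : Prop := ∀ o ∈ T, ∃ t ∈ S, ∃ u ∈ S, o = t ∪ u

theorem trRef_smul {x : ↥M24} {T S : Finset (Finset GolayPt)} (hx : x • T = T) (h : trRef T S) : trRef T (x • S) := by
  intro o ho
  have h1 : x⁻¹ • o ∈ T := by
    rw [← smul_mem_iff_of_stab hx, smul_inv_smul]
    exact ho
  obtain ⟨t, ht, u, hu, he⟩ := h _ h1
  refine ⟨x • t, Finset.smul_mem_smul_finset ht, x • u, Finset.smul_mem_smul_finset hu, ?_⟩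
  show o = x.1 • t ∪ x.1 • u
  rw [← Finset.smul_finset_union, ← he]
  exact (smul_inv_smul x o).symm

/-- The test for refinement. -/
noncomputable def refB (k : ℕ) : Bool :=
  allBelow (fun o => anyBelow (fun a => anyBelow (fun b => Nat.beq (Nat.lor (sxT k a) (sxT k b)) (trT 0 o)) 6) 6) 3

theorem trRef_iff (k : ℕ) : trRef (trS 0) (sxS k) ↔ refB k = true := by
  rw [refB, allBelow_iff]
  constructor
  · intro h o ho
    have h1 : enc.finOf (trT 0 o) ∈ trS 0 := Finset.mem_image.2 ⟨o, Finset.mem_range.2 ho, rfl⟩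
    obtain ⟨t, ht, u, hu, he⟩ := h _ h1
    obtain ⟨a, ha, rfl⟩ := Finset.mem_image.1 ht
    obtain ⟨b, hb, rfl⟩ := Finset.mem_image.1 hu
    refine (anyBelow_iff _ _).2 ⟨a, Finset.mem_range.1 ha, (anyBelow_iff _ _).2 ⟨b, Finset.mem_range.1 hb, ?_⟩⟩
    have h2 : (enc.finOf (sxT k a) ∪ enc.finOf (sxT k b) : Finset GolayPt) = enc.finOf (Nat.lor (sxT k a) (sxT k b)) :=
      (enc.finOf_or _ _).symm
    rw [h2] at he
    have h3 := enc.finOf_injOn (trT_lt 0 o) (Nat.or_lt_two_pow (sxT_lt k a) (sxT_lt k b)) he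
    rw [show Nat.lor (sxT k a) (sxT k b) = trT 0 o from h3.symm]
    exact Nat.beq_refl _
  · intro h o ho
    obtain ⟨i, hi, rfl⟩ := Finset.mem_image.1 ho
    obtain ⟨a, ha, h1⟩ := (anyBelow_iff _ _).1 (h i (Finset.mem_range.1 hi))
    obtain ⟨b, hb, h2⟩ := (anyBelow_iff _ _).1 h1
    refine ⟨_, Finset.mem_image.2 ⟨a, Finset.mem_range.2 ha, rfl⟩, _, Finset.mem_image.2 ⟨b, Finset.mem_range.2 hb, rfl⟩, ?_⟩
    rw [← Nat.eq_of_beq_eq_true h2]
    exact enc.finOf_or _ _

theorem rf_complete : allBelow (fun k => !(refB k) || anyBelow (fun n => Nat.beq k (rIdx (n + 1))) 7) 1771 = true := by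
  decide +kernel

theorem rf_ref : allBelow (fun n => refB (rIdx (n + 1))) 7 = true := by decide +kernel

/-- An element of the stabiliser of the trio permutes the families. -/
theorem exists_image (x : ↥HT) (v : V3) : ∃ w, (x : ↥M24) • zs v = zs w := by
  by_cases h0 : v3code v = 0
  · refine ⟨v, ?_⟩
    show (x : ↥M24) • rfZ (v3code v) = rfZ (v3code v)
    rw [h0, rfZ_zero]
    exact Finset.smul_finset_empty _
  · have h8 := v3code_lt v
    have h1 : zs v = sxS (rIdx (v3code v)) := rfZ_pos h0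
    obtain ⟨m, hm⟩ := Nat.exists_eq_succ_of_ne_zero h0
    have h2 : refB (rIdx (v3code v)) = true := by
      rw [hm]
      exact (allBelow_iff _ _).1 rf_ref m (by omega)
    have h3 : trRef (trS 0) ((x : ↥M24) • sxS (rIdx (v3code v))) := trRef_smul x.2 ((trRef_iff _).2 h2)
    have h4 : (x : ↥M24) • sxS (rIdx (v3code v)) ∈ sextets :=
      smul_mem_sextets (x : ↥M24).2 (sxS_mem_sextets (rIdx_lt h0 h8))
    obtain ⟨k, hk, hke⟩ := mem_sextets_iff.1 h4
    rw [hke] at h3
    have h5 := (allBelow_iff _ _).1 rf_complete k hk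
    rw [(trRef_iff k).1 h3] at h5
    simp only [Bool.not_true, Bool.false_or] at h5
    obtain ⟨n, hn, hne⟩ := (anyBelow_iff _ _).1 h5
    obtain ⟨w, hw⟩ := v3code_surj (n + 1) (by omega)
    refine ⟨w, ?_⟩
    rw [h1, hke, zs, hw, rfZ_pos (by omega), Nat.eq_of_beq_eq_true hne]

/-- The map induced on vectors. -/
noncomputable def fT (x : ↥HT) (v : V3) : V3 := Classical.choose (exists_image x v)

theorem fT_spec (x : ↥HT) (v : V3) : zs (fT x v) = (x : ↥M24) • zs v :=
  (Classical.choose_spec (exists_image x v)).symm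

theorem fT_mul (x y : ↥HT) (v : V3) : fT (x * y) v = fT x (fT y v) := by
  apply zs_inj
  rw [fT_spec, fT_spec, fT_spec]
  exact mul_smul _ _ _

theorem fT_one (v : V3) : fT 1 v = v := by
  apply zs_inj
  rw [fT_spec]
  exact one_smul _ _

/-- The permutation induced on vectors. -/
noncomputable def fP (x : ↥HT) : Equiv.Perm V3 :=
  { toFun := fT x
    invFun := fT x⁻¹
    left_inv := fun v => by rw [← fT_mul, inv_mul_cancel, fT_one]
    right_inv := fun v => by rw [← fT_mul, mul_inv_cancel, fT_one] }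

theorem fP_apply (x : ↥HT) (v : V3) : fP x v = fT x v := rfl

theorem fT_zero (x : ↥HT) : fT x 0 = 0 := by
  apply zs_inj
  rw [fT_spec]
  show (x : ↥M24) • rfZ (v3code 0) = rfZ (v3code 0)
  rw [show v3code 0 = 0 from rfl, rfZ_zero]
  exact Finset.smul_finset_empty _

/-! ### Lines -/

/-- The line relation. -/
def trLine (S₁ S₂ S₃ : Finset (Finset GolayPt)) : Prop :=
  ∀ t ∈ S₁, ∀ u ∈ S₂, (t ∩ u).card = 2 → symmDiff t u ∈ S₃

theorem trLine_smul (g : ↥M24) {S₁ S₂ S₃ : Finset (Finset GolayPt)} (h : trLine S₁ S₂ S₃) :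
    trLine (g • S₁) (g • S₂) (g • S₃) := by
  intro t ht u hu hc
  obtain ⟨t', ht', rfl⟩ := Finset.mem_smul_finset.1 ht
  obtain ⟨u', hu', rfl⟩ := Finset.mem_smul_finset.1 hu
  have h1 : (t' ∩ u').card = 2 := by
    rw [← hc]
    show _ = (g.1 • t' ∩ g.1 • u').card
    rw [← Finset.smul_finset_inter, Finset.card_smul_finset]
  have h2 := h t' ht' u' hu' h1
  have h3 : symmDiff (g • t') (g • u') = g • symmDiff t' u' := by
    show symmDiff (g.1 • t') (g.1 • u') = g.1 • symmDiff t' u'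
    ext y
    rw [Finset.mem_symmDiff, Finset.mem_smul_finset, Finset.mem_smul_finset, Finset.mem_smul_finset]
    have key : ∀ z : Finset GolayPt, (∃ a ∈ z, g.1 • a = y) ↔ (g.1)⁻¹ y ∈ z := by
      intro z
      constructor
      · rintro ⟨a, ha, rfl⟩
        have : (g.1)⁻¹ (g.1 a) = a := by simp
        show (g.1)⁻¹ (g.1 a) ∈ z
        rw [this]
        exact ha
      · intro hy
        exact ⟨_, hy, by show g.1 ((g.1)⁻¹ y) = y; simp⟩
    rw [key, key, key, Finset.mem_symmDiff]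
  rw [h3]
  exact Finset.smul_mem_smul_finset h2

/-- The test of the line relation. -/
noncomputable def lineB (i j k : ℕ) : Bool :=
  allBelow (fun a => allBelow (fun b => !(Nat.beq (Enc.popAux (Nat.land (sxT i a) (sxT j b)) 24) 2) ||
    anyBelow (fun c => Nat.beq (Nat.xor (sxT i a) (sxT j b)) (sxT k c)) 6) 6) 6

theorem trLine_iff (i j k : ℕ) : trLine (sxS i) (sxS j) (sxS k) ↔ lineB i j k = true := by
  have hcard : ∀ a b, ((enc.finOf (sxT i a) ∩ enc.finOf (sxT j b) : Finset GolayPt)).card = Enc.popAux (Nat.land (sxT i a) (sxT j b)) 24 := by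
    intro a b
    rw [show (enc.finOf (sxT i a) ∩ enc.finOf (sxT j b) : Finset GolayPt) = enc.finOf (Nat.land (sxT i a) (sxT j b)) from (enc.finOf_and _ _).symm,
      card_enc_finOf]
  have hxor : ∀ a b, symmDiff (enc.finOf (sxT i a)) (enc.finOf (sxT j b)) = (enc.finOf (Nat.xor (sxT i a) (sxT j b)) : Finset GolayPt) :=
    fun a b => (enc.finOf_xor _ _).symm
  rw [lineB, allBelow_iff]
  constructor
  · intro h a ha
    refine (allBelow_iff _ _).2 fun b hb => ?_
    by_cases h2 : Enc.popAux (Nat.land (sxT i a) (sxT j b)) 24 = 2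
    · have h3 := h _ (Finset.mem_image.2 ⟨a, Finset.mem_range.2 ha, rfl⟩) _ (Finset.mem_image.2 ⟨b, Finset.mem_range.2 hb, rfl⟩)
        (by rw [hcard, h2])
      obtain ⟨c, hc, hce⟩ := Finset.mem_image.1 h3
      rw [hxor] at hce
      have h4 := enc.finOf_injOn (sxT_lt k c) (Nat.xor_lt_two_pow (sxT_lt i a) (sxT_lt j b)) hce
      rw [Bool.or_eq_true]
      refine Or.inr ((anyBelow_iff _ _).2 ⟨c, Finset.mem_range.1 hc, ?_⟩)
      rw [show Nat.xor (sxT i a) (sxT j b) = sxT k c from h4.symm]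
      exact Nat.beq_refl _
    · have h5 : Nat.beq (Enc.popAux (Nat.land (sxT i a) (sxT j b)) 24) 2 = false := by
        cases h6 : Nat.beq (Enc.popAux (Nat.land (sxT i a) (sxT j b)) 24) 2
        · rfl
        · exact absurd (Nat.eq_of_beq_eq_true h6) h2
      rw [h5]
      rfl
  · intro h t ht u hu hc
    obtain ⟨a, ha, rfl⟩ := Finset.mem_image.1 ht
    obtain ⟨b, hb, rfl⟩ := Finset.mem_image.1 hu
    have h1 := (allBelow_iff _ _).1 (h a (Finset.mem_range.1 ha)) b (Finset.mem_range.1 hb)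
    rw [hcard] at hc
    rw [hc] at h1
    have h2 : (Nat.beq 2 2) = true := rfl
    rw [h2] at h1
    simp only [Bool.not_true, Bool.false_or] at h1
    obtain ⟨c, hc', h3⟩ := (anyBelow_iff _ _).1 h1
    rw [hxor, Nat.eq_of_beq_eq_true h3]
    exact Finset.mem_image.2 ⟨c, Finset.mem_range.2 hc', rfl⟩

theorem line_check : allBelow (fun n => allBelow (fun m => allBelow (fun l =>
    Nat.beq n 0 || Nat.beq m 0 || Nat.beq l 0 || Nat.beq n m ||
      bcond (Nat.beq l (Nat.xor n m)) (lineB (rIdx n) (rIdx m) (rIdx l)) (!(lineB (rIdx n) (rIdx m) (rIdx l)))) 8) 8) 8 = true := by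
  decide +kernel

theorem bcond_spec' {L c : Bool} (h : bcond c L (!L) = true) : L = true ↔ c = true := by
  cases L <;> cases c <;> simp_all

theorem line_spec {n m l : ℕ} (hn : n < 8) (hm : m < 8) (hl : l < 8) (hn0 : n ≠ 0) (hm0 : m ≠ 0) (hl0 : l ≠ 0) (hnm : n ≠ m) :
    lineB (rIdx n) (rIdx m) (rIdx l) = true ↔ l = Nat.xor n m := by
  have h := (allBelow_iff _ _).1 ((allBelow_iff _ _).1 ((allBelow_iff _ _).1 line_check n hn) m hm) l hl
  have hf : ∀ {a b : ℕ}, a ≠ b → Nat.beq a b = false := by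
    intro a b hab
    cases h6 : Nat.beq a b
    · rfl
    · exact absurd (Nat.eq_of_beq_eq_true h6) hab
  rw [hf hn0, hf hm0, hf hl0, hf hnm] at h
  simp only [Bool.false_or] at h
  rw [bcond_spec' h]
  constructor
  · exact Nat.eq_of_beq_eq_true
  · intro h5
    rw [h5]
    exact Nat.beq_refl _

theorem fT_ne_zero (x : ↥HT) {v : V3} (hv : v ≠ 0) : fT x v ≠ 0 := by
  intro h
  apply hv
  have h1 : fP x v = fP x 0 := by rw [fP_apply, fP_apply, h, fT_zero]
  exact (fP x).injective h1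

theorem fT_add (x : ↥HT) (u v : V3) : fT x (u + v) = fT x u + fT x v := by
  by_cases hu : u = 0
  · subst hu
    rw [zero_add, fT_zero, zero_add]
  by_cases hv : v = 0
  · subst hv
    rw [add_zero, fT_zero, add_zero]
  by_cases huv : u = v
  · subst huv
    rw [CharTwo.add_self_eq_zero, CharTwo.add_self_eq_zero, fT_zero]
  have huv0 : u + v ≠ 0 := by
    intro h
    apply huv
    have : u = -v := eq_neg_of_add_eq_zero_left h
    rw [this, CharTwo.neg_eq]
  have hcu : v3code u ≠ 0 := fun h => hu ((v3code_zero u).1 h)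
  have hcv : v3code v ≠ 0 := fun h => hv ((v3code_zero v).1 h)
  have hcuv : v3code (u + v) ≠ 0 := fun h => huv0 ((v3code_zero _).1 h)
  have hne : v3code u ≠ v3code v := fun h => huv (v3code_inj _ _ h)
  have h1 : lineB (rIdx (v3code u)) (rIdx (v3code v)) (rIdx (v3code (u + v))) = true :=
    (line_spec (v3code_lt u) (v3code_lt v) (v3code_lt _) hcu hcv hcuv hne).2 (v3code_add u v)
  have h2 : trLine (zs u) (zs v) (zs (u + v)) := by
    rw [zs, zs, zs, rfZ_pos hcu, rfZ_pos hcv, rfZ_pos hcuv]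
    exact (trLine_iff _ _ _).2 h1
  have h3 := trLine_smul (x : ↥M24) h2
  rw [← fT_spec, ← fT_spec, ← fT_spec] at h3
  have hfu := fT_ne_zero x hu
  have hfv := fT_ne_zero x hv
  have hfuv := fT_ne_zero x huv0
  have hne' : fT x u ≠ fT x v := fun h => huv ((fP x).injective h)
  have hcfu : v3code (fT x u) ≠ 0 := fun h => hfu ((v3code_zero _).1 h)
  have hcfv : v3code (fT x v) ≠ 0 := fun h => hfv ((v3code_zero _).1 h)
  have hcfuv : v3code (fT x (u + v)) ≠ 0 := fun h => hfuv ((v3code_zero _).1 h)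
  rw [zs, zs, zs, rfZ_pos hcfu, rfZ_pos hcfv, rfZ_pos hcfuv] at h3
  have h4 := (trLine_iff _ _ _).1 h3
  have h5 := (line_spec (v3code_lt _) (v3code_lt _) (v3code_lt _) hcfu hcfv hcfuv (fun h => hne' (v3code_inj _ _ h))).1 h4
  apply v3code_inj
  rw [h5, v3code_add]

/-! ### The homomorphism -/

/-- The linear map of an element. -/
noncomputable def fL (x : ↥HT) : V3 ≃ₗ[ZMod 2] V3 :=
  { toFun := fP x
    invFun := (fP x).symm
    left_inv := (fP x).left_inv
    right_inv := (fP x).right_inv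
    map_add' := fT_add x
    map_smul' := fun c v => ZMod.map_smul (AddMonoidHom.mk' (fP x) (fT_add x)) c v }

theorem fL_apply (x : ↥HT) (v : V3) : fL x v = fT x v := rfl

/-- The homomorphism to the linear equivalences. -/
noncomputable def fLhom : ↥HT →* (V3 ≃ₗ[ZMod 2] V3) where
  toFun := fL
  map_one' := LinearEquiv.ext fun v => fT_one v
  map_mul' x y := LinearEquiv.ext fun v => fT_mul x y v

/-- The isomorphism of the linear equivalences with the matrix group. -/
noncomputable def glE : (V3 ≃ₗ[ZMod 2] V3) ≃* GL (Fin 3) (ZMod 2) :=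
  (LinearMap.GeneralLinearGroup.generalLinearEquiv (ZMod 2) V3).symm.trans Matrix.GeneralLinearGroup.toLin.symm

/-- The first component. -/
noncomputable def phi1 : ↥HT →* GL (Fin 3) (ZMod 2) := glE.toMonoidHom.comp fLhom

theorem phi1_eq {x y : ↥HT} (h : phi1 x = phi1 y) (v : V3) : fT x v = fT y v := by
  have h1 : fL x = fL y := glE.injective h
  exact congrArg (fun e : V3 ≃ₗ[ZMod 2] V3 => e v) h1

theorem phi1_of_fix {x : ↥HT} (h : ∀ v, fT x v = v) : phi1 x = 1 := by
  show glE (fL x) = 1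
  rw [show fL x = 1 from LinearEquiv.ext h, map_one]

theorem trT0_inj : ∀ a, a < 3 → ∀ b, b < 3 → trT 0 a = trT 0 b → a = b := by decide +kernel

theorem trS0_mem (j : ℕ) (hj : j < 3) : (enc.finOf (trT 0 j) : Finset GolayPt) ∈ trS 0 :=
  Finset.mem_image.2 ⟨j, Finset.mem_range.2 hj, rfl⟩

/-- The numbering of the octads of the base trio. -/
noncomputable def trEnum : Fin 3 ≃ ↥(trS 0) :=
  Equiv.ofBijective (fun j => ⟨enc.finOf (trT 0 j), trS0_mem j j.2⟩) (by
    constructor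
    · intro a b h
      have h1 : (enc.finOf (trT 0 a) : Finset GolayPt) = enc.finOf (trT 0 b) := congrArg Subtype.val h
      exact Fin.ext (trT0_inj _ a.2 _ b.2 (enc.finOf_injOn (trT_lt 0 _) (trT_lt 0 _) h1))
    · rintro ⟨t, ht⟩
      obtain ⟨j, hj, rfl⟩ := Finset.mem_image.1 ht
      exact ⟨⟨j, Finset.mem_range.1 hj⟩, rfl⟩)

theorem trEnum_val (j : Fin 3) : (trEnum j : Finset GolayPt) = enc.finOf (trT 0 j) := rfl

/-- The second component. -/
noncomputable def phi2 : ↥HT →* Equiv.Perm (Fin 3) :=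
  (trEnum.symm.permCongrHom).toMonoidHom.comp (famRes (G := ↥M24) (trS 0))

theorem phi2_eq {x y : ↥HT} (h : phi2 x = phi2 y) : famRes (G := ↥M24) (trS 0) x = famRes (trS 0) y :=
  (trEnum.symm.permCongrHom).injective h

/-- The whole homomorphism. -/
noncomputable def phiT : ↥HT →* GL (Fin 3) (ZMod 2) × Equiv.Perm (Fin 3) := phi1.prod phi2

/-! ### The transversal -/

/-- A table of packed elements. -/
noncomputable def tL (k : ℕ) : ℕ := tbl120 trTrans k
/-- A table of keys. -/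
noncomputable def tK (k : ℕ) : ℕ := pget 14 16383 trKeys k

/-- The check of a transversal element. -/
noncomputable def chkT (k : ℕ) : Bool :=
  vld (tL k) && famEq (pc (tL k)) (trT 0) (trT 0) 3 &&
    !(Nat.beq (tK k % 8) 0) && !(Nat.beq (tK k / 8 % 8) 0) && !(Nat.beq (tK k / 64 % 8) 0) &&
    famEq (pc (tL k)) (sxT (rIdx 1)) (sxT (rIdx (tK k % 8))) 6 &&
    famEq (pc (tL k)) (sxT (rIdx 2)) (sxT (rIdx (tK k / 8 % 8))) 6 &&
    famEq (pc (tL k)) (sxT (rIdx 4)) (sxT (rIdx (tK k / 64 % 8))) 6 &&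
    Nat.blt (tK k / 512 % 3) 3 && Nat.blt (tK k / 1536) 3 &&
    Nat.beq (imgMask (pc (tL k)) (trT 0 0) 24) (trT 0 (tK k / 512 % 3)) &&
    Nat.beq (imgMask (pc (tL k)) (trT 0 1) 24) (trT 0 (tK k / 1536))

theorem chkT_all : allBelow chkT 1008 = true := by decide +kernel

theorem tK_sorted : allBelow (fun k => Nat.blt (tK k) (tK (k + 1))) 1007 = true := by decide +kernel

theorem tK_lt_of_lt {a b : ℕ} (hab : a < b) (hb : b < 1008) : tK a < tK b := by
  have step : ∀ k, k + 1 < 1008 → tK k < tK (k + 1) := fun k hk => by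
    have := (allBelow_iff _ _).1 tK_sorted k (by omega)
    simpa [Nat.blt_eq] using this
  induction b, hab using Nat.le_induction with
  | base => exact step a hb
  | succ n hn ih => exact lt_trans (ih (by omega)) (step n hb)

theorem tK_inj {a b : ℕ} (ha : a < 1008) (hb : b < 1008) (h : tK a = tK b) : a = b := by
  by_contra hne
  rcases Nat.lt_or_gt_of_ne hne with h2 | h2
  · have := tK_lt_of_lt h2 hb
    omega
  · have := tK_lt_of_lt h2 ha
    omega

/-- An element of the base trio stabiliser from a packed element. -/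
noncomputable def xOf (p : ℕ) (hv : vld p = true) (hf : famEq (pc p) (trT 0) (trT 0) 3 = true) : ↥HT :=
  ⟨⟨ppm p, vld_mem hv⟩, famEq_spec (vld_code hv) hf le_rfl⟩

theorem xOf_smul_sx {p : ℕ} {hv : vld p = true} {hf : famEq (pc p) (trT 0) (trT 0) 3 = true} {n m : ℕ}
    (hm : m < 8) (hm0 : m ≠ 0) (hn : n < 8) (hn0 : n ≠ 0)
    (h : famEq (pc p) (sxT (rIdx n)) (sxT (rIdx m)) 6 = true) :
    ((xOf p hv hf : ↥HT) : ↥M24) • rfZ n = rfZ m := by
  rw [rfZ_pos hn0, rfZ_pos hm0]
  have h1 : (famOf (sxT (rIdx m)) 6).card ≤ (famOf (sxT (rIdx n)) 6).card := by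
    rw [famOf_sxT_card (rIdx_lt hn0 hn), famOf_sxT_card (rIdx_lt hm0 hm)]
  exact famEq_spec (vld_code hv) h h1

theorem rfZ_one : ∀ {x : ↥HT} {v : V3} {n m : ℕ}, v3code v = n → n ≠ 0 → m < 8 → (x : ↥M24) • rfZ n = rfZ m → v3code (fT x v) = m := by
  intro x v n m hv _ hm h
  apply rfZ_inj (v3code_lt _) hm
  have := fT_spec x v
  rw [zs, zs, hv, h] at this
  exact this

theorem smul_octad_of_mask {x : ↥HT} {p : ℕ} (hx : ((x : ↥M24) : Equiv.Perm GolayPt) = ppm p) (hv : vld p = true) (j : ℕ) :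
    ((x : ↥M24) • (enc.finOf (trT 0 j) : Finset GolayPt)) = enc.finOf (imgMask (pc p) (trT 0 j) 24) := by
  show ((x : ↥M24) : Equiv.Perm GolayPt) • (enc.finOf (trT 0 j) : Finset GolayPt) = _
  rw [hx, img_finOf (vld_code hv)]

/-- The transversal is injective. -/
theorem phiT_tX_inj {a b : ℕ} (ha : a < 1008) (hb : b < 1008) {pa pb : ℕ} (hpa : pa = tL a) (hpb : pb = tL b)
    {hva : vld pa = true} {hfa : famEq (pc pa) (trT 0) (trT 0) 3 = true} {hvb : vld pb = true}
    {hfb : famEq (pc pb) (trT 0) (trT 0) 3 = true}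
    (h : phiT (xOf pa hva hfa) = phiT (xOf pb hvb hfb)) : a = b := by
  have h1 : phi1 (xOf pa hva hfa) = phi1 (xOf pb hvb hfb) := congrArg Prod.fst h
  have h2 : phi2 (xOf pa hva hfa) = phi2 (xOf pb hvb hfb) := congrArg Prod.snd h
  have ca := (allBelow_iff _ _).1 chkT_all a ha
  have cb := (allBelow_iff _ _).1 chkT_all b hb
  simp only [chkT, Bool.and_eq_true, Bool.not_eq_true'] at ca cb
  obtain ⟨⟨⟨⟨⟨⟨⟨⟨⟨⟨⟨_, _⟩, a0⟩, a1⟩, a2⟩, a3⟩, a4⟩, a5⟩, a6⟩, a7⟩, a8⟩, a9⟩ := ca
  obtain ⟨⟨⟨⟨⟨⟨⟨⟨⟨⟨⟨_, _⟩, b0⟩, b1⟩, b2⟩, b3⟩, b4⟩, b5⟩, b6⟩, b7⟩, b8⟩, b9⟩ := cb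
  rw [← hpa] at a3 a4 a5 a8 a9
  rw [← hpb] at b3 b4 b5 b8 b9
  have ne0 : ∀ {c : ℕ}, Nat.beq c 0 = false → c ≠ 0 := by
    intro c hc h0
    rw [h0] at hc
    exact Bool.noConfusion hc
  have lt8 : ∀ c : ℕ, c % 8 < 8 := fun c => Nat.mod_lt _ (by norm_num)
  obtain ⟨e0, he0⟩ := v3code_surj 1 (by norm_num)
  obtain ⟨e1, he1⟩ := v3code_surj 2 (by norm_num)
  obtain ⟨e2, he2⟩ := v3code_surj 4 (by norm_num)
  have n0 : tK a % 8 = tK b % 8 := by
    have u1 : v3code (fT (xOf pa hva hfa) e0) = tK a % 8 :=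
      rfZ_one he0 (by norm_num) (lt8 _) (xOf_smul_sx (hv := hva) (hf := hfa) (lt8 _) (ne0 a0) (by norm_num) (by norm_num) a3)
    have u2 : v3code (fT (xOf pb hvb hfb) e0) = tK b % 8 :=
      rfZ_one he0 (by norm_num) (lt8 _) (xOf_smul_sx (hv := hvb) (hf := hfb) (lt8 _) (ne0 b0) (by norm_num) (by norm_num) b3)
    rw [← u1, ← u2, phi1_eq h1]
  have n1 : tK a / 8 % 8 = tK b / 8 % 8 := by
    have u1 : v3code (fT (xOf pa hva hfa) e1) = tK a / 8 % 8 :=
      rfZ_one he1 (by norm_num) (lt8 _) (xOf_smul_sx (hv := hva) (hf := hfa) (lt8 _) (ne0 a1) (by norm_num) (by norm_num) a4)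
    have u2 : v3code (fT (xOf pb hvb hfb) e1) = tK b / 8 % 8 :=
      rfZ_one he1 (by norm_num) (lt8 _) (xOf_smul_sx (hv := hvb) (hf := hfb) (lt8 _) (ne0 b1) (by norm_num) (by norm_num) b4)
    rw [← u1, ← u2, phi1_eq h1]
  have n2 : tK a / 64 % 8 = tK b / 64 % 8 := by
    have u1 : v3code (fT (xOf pa hva hfa) e2) = tK a / 64 % 8 :=
      rfZ_one he2 (by norm_num) (lt8 _) (xOf_smul_sx (hv := hva) (hf := hfa) (lt8 _) (ne0 a2) (by norm_num) (by norm_num) a5)
    have u2 : v3code (fT (xOf pb hvb hfb) e2) = tK b / 64 % 8 :=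
      rfZ_one he2 (by norm_num) (lt8 _) (xOf_smul_sx (hv := hvb) (hf := hfb) (lt8 _) (ne0 b2) (by norm_num) (by norm_num) b5)
    rw [← u1, ← u2, phi1_eq h1]
  have hfam := phi2_eq h2
  have oct : ∀ j : Fin 3, ((xOf pa hva hfa : ↥HT) : ↥M24) • (enc.finOf (trT 0 j) : Finset GolayPt) =
      ((xOf pb hvb hfb : ↥HT) : ↥M24) • (enc.finOf (trT 0 j) : Finset GolayPt) := by
    intro j
    have h3 := congrArg (fun e : Equiv.Perm ↥(trS 0) => ((e (trEnum j) : ↥(trS 0)) : Finset GolayPt)) hfam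
    exact h3
  have p0 : tK a / 512 % 3 = tK b / 512 % 3 := by
    have h4 := oct 0
    rw [smul_octad_of_mask rfl hva, smul_octad_of_mask rfl hvb] at h4
    have h5 := enc.finOf_injOn (imgMask_lt (fun i hi => code_lt' (vld_code hva) i hi) _ _ le_rfl)
      (imgMask_lt (fun i hi => code_lt' (vld_code hvb) i hi) _ _ le_rfl) h4
    rw [show (((0 : Fin 3) : ℕ)) = 0 from rfl, Nat.eq_of_beq_eq_true a8, Nat.eq_of_beq_eq_true b8] at h5
    have lta : tK a / 512 % 3 < 3 := Nat.mod_lt _ (by norm_num)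
    have ltb : tK b / 512 % 3 < 3 := Nat.mod_lt _ (by norm_num)
    exact trT0_inj _ lta _ ltb h5
  have p1 : tK a / 1536 = tK b / 1536 := by
    have h4 := oct 1
    rw [smul_octad_of_mask rfl hva, smul_octad_of_mask rfl hvb] at h4
    have h5 := enc.finOf_injOn (imgMask_lt (fun i hi => code_lt' (vld_code hva) i hi) _ _ le_rfl)
      (imgMask_lt (fun i hi => code_lt' (vld_code hvb) i hi) _ _ le_rfl) h4
    rw [show (((1 : Fin 3) : ℕ)) = 1 from rfl, Nat.eq_of_beq_eq_true a9, Nat.eq_of_beq_eq_true b9] at h5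
    have lta : tK a / 1536 < 3 := by simpa [Nat.blt_eq] using a7
    have ltb : tK b / 1536 < 3 := by simpa [Nat.blt_eq] using b7
    exact trT0_inj _ lta _ ltb h5
  apply tK_inj ha hb
  omega

theorem card_target : Nat.card (GL (Fin 3) (ZMod 2) × Equiv.Perm (Fin 3)) = 1008 := by
  have : Fact (Nat.Prime 2) := ⟨Nat.prime_two⟩
  rw [Nat.card_prod, Matrix.card_GL_field 3 (𝔽 := ZMod 2), Nat.card_eq_fintype_card, Fintype.card_perm,
    Fintype.card_fin, ZMod.card]
  simp [Fin.prod_univ_succ]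
  rfl

theorem phiT_surj : Function.Surjective phiT := by
  have hc : ∀ k : Fin 1008, vld (tL k) = true ∧ famEq (pc (tL k)) (trT 0) (trT 0) 3 = true := by
    intro k
    have ca := (allBelow_iff _ _).1 chkT_all k k.2
    simp only [chkT, Bool.and_eq_true] at ca
    exact ca.1.1.1.1.1.1.1.1.1.1
  let g : Fin 1008 → GL (Fin 3) (ZMod 2) × Equiv.Perm (Fin 3) := fun k => phiT (xOf (tL k) (hc k).1 (hc k).2)
  have hg : Function.Injective g := by
    intro a b h
    exact Fin.ext (phiT_tX_inj a.2 b.2 rfl rfl h)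
  have hb := hg.bijective_of_nat_card_le (by rw [card_target]; simp)
  intro y
  obtain ⟨k, rfl⟩ := hb.2 y
  exact ⟨_, rfl⟩

theorem card_phiT_ker : Nat.card phiT.ker = 64 := by
  have h1 := card_stabilizer_trio (S := trS 0) (trS_mem_trios (by norm_num))
  rw [phiT.ker.card_eq_card_quotient_mul_card_subgroup,
    Nat.card_congr (QuotientGroup.quotientKerEquivOfSurjective _ phiT_surj).toEquiv, card_target] at h1
  omega

/-! ### The kernel -/

/-- The check of a kernel element. -/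
noncomputable def chkK (p : ℕ) : Bool :=
  vld p && famEq (pc p) (trT 0) (trT 0) 3 &&
    allBelow (fun n => famEq (pc p) (sxT (rIdx (n + 1))) (sxT (rIdx (n + 1))) 6) 7 &&
    allBelow (fun j => Nat.beq (imgMask (pc p) (trT 0 j) 24) (trT 0 j)) 3 && sqId (pc p)

theorem chkK_all : trK64.all chkK = true := by decide +kernel

theorem trK64_keys : (trK64.map fun p => keyOf (pc p)).Nodup := by decide +kernel

theorem chkK_spec {p : ℕ} (h : chkK p = true) : vld p = true ∧ ∃ x ∈ phiT.ker, (x : ↥M24).1 = ppm p := by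
  simp only [chkK, Bool.and_eq_true] at h
  obtain ⟨⟨⟨⟨hv, hf⟩, h1⟩, h2⟩, _⟩ := h
  refine ⟨hv, xOf p hv hf, ?_, rfl⟩
  rw [MonoidHom.mem_ker]
  apply Prod.ext
  · apply phi1_of_fix
    intro v
    by_cases h0 : v3code v = 0
    · have : v = 0 := (v3code_zero v).1 h0
      rw [this, fT_zero]
    · apply zs_inj
      rw [fT_spec]
      obtain ⟨m, hm⟩ := Nat.exists_eq_succ_of_ne_zero h0
      have h8 := v3code_lt v
      rw [zs, hm]
      exact xOf_smul_sx (by omega) (by omega) (by omega) (by omega) ((allBelow_iff _ _).1 h1 m (by omega))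
  · show (trEnum.symm.permCongrHom) (famRes (trS 0) (xOf p hv hf)) = 1
    have h3 : xOf p hv hf ∈ (famRes (G := ↥M24) (trS 0)).ker := by
      rw [mem_famRes_ker]
      intro t ht
      obtain ⟨j, hj, rfl⟩ := Finset.mem_image.1 ht
      have h4 := smul_octad_of_mask (x := xOf p hv hf) rfl hv j
      rw [h4, Nat.eq_of_beq_eq_true ((allBelow_iff _ _).1 h2 j (Finset.mem_range.1 hj))]
    rw [MonoidHom.mem_ker.1 h3, map_one]

/-- The image of a subgroup in the symmetric group. -/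
theorem ncard_image_subT {H : Subgroup ↥HT} :
    ((fun x : ↥HT => (x : ↥M24).1) '' (H : Set _)).ncard = Nat.card H := by
  rw [Set.ncard_image_of_injective]
  · rfl
  · intro a b h
    exact Subtype.ext (Subtype.ext h)

theorem trk_cover {x : ↥HT} (hx : x ∈ phiT.ker) : ∃ p ∈ trK64, (x : ↥M24).1 = ppm p := by
  classical
  have hall : ∀ p ∈ trK64, chkK p = true := List.all_eq_true.1 chkK_all
  let A : Set (Equiv.Perm GolayPt) := ppm '' (trK64.toFinset : Set ℕ)
  have hA := card_of_list (A := A) (L := trK64) (fun p hp => (chkK_spec (hall p hp)).1)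
    (fun p hp => ⟨p, by simpa using hp, rfl⟩)
    (fun σ hσ => by
      obtain ⟨p, hp, rfl⟩ := hσ
      exact ⟨p, by simpa using hp, rfl⟩) trK64_keys
  have hlen : trK64.length = 64 := by decide +kernel
  rw [hlen] at hA
  let B : Set (Equiv.Perm GolayPt) := (fun x : ↥HT => (x : ↥M24).1) '' (phiT.ker : Set _)
  have hB : B.ncard = 64 := by
    rw [ncard_image_subT, card_phiT_ker]
  have hsub : A ⊆ B := by
    rintro _ ⟨p, hp, rfl⟩
    obtain ⟨_, y, hy, hye⟩ := chkK_spec (hall p (by simpa using hp))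
    exact ⟨y, hy, hye⟩
  have hEq : A = B := Set.eq_of_subset_of_ncard_le hsub (by rw [hA, hB]) (Set.toFinite _)
  have hxB : (x : ↥M24).1 ∈ B := ⟨x, hx, rfl⟩
  rw [← hEq] at hxB
  obtain ⟨p, hp, hpe⟩ := hxB
  exact ⟨p, by simpa using hp, hpe.symm⟩

theorem phiT_ker_sq {x : ↥HT} (hx : x ∈ phiT.ker) : x * x = 1 := by
  obtain ⟨p, hp, hpe⟩ := trk_cover hx
  have h := List.all_eq_true.1 chkK_all p hp
  simp only [chkK, Bool.and_eq_true] at h
  apply Subtype.ext
  apply Subtype.ext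
  show (x : ↥M24).1 * (x : ↥M24).1 = 1
  rw [hpe]
  exact (sqId_iff (vld_code h.1.1.1.1)).1 h.2

/-! ### The general trio -/

theorem famRes_trS0_surj : Function.Surjective (famRes (G := ↥M24) (trS 0)) := by
  intro e
  obtain ⟨x, hx⟩ := phiT_surj (1, trEnum.symm.permCongr e)
  refine ⟨x, ?_⟩
  have h1 : phi2 x = trEnum.symm.permCongr e := congrArg Prod.snd hx
  exact (trEnum.symm.permCongrHom).injective h1

theorem trio_normal0 : ∃ (N : Subgroup ↥(MulAction.stabilizer ↥M24 (trS 0))) (_ : N.Normal), Nat.card N = 64 ∧ (∀ x ∈ N, x * x = 1) ∧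
    Nonempty (↥(MulAction.stabilizer ↥M24 (trS 0)) ⧸ N ≃* GL (Fin 3) (ZMod 2) × Equiv.Perm (Fin 3)) :=
  ⟨phiT.ker, inferInstance, card_phiT_ker, fun _ hx => phiT_ker_sq hx,
    ⟨QuotientGroup.quotientKerEquivOfSurjective _ phiT_surj⟩⟩

/-- Structure of a trio stabiliser. -/
theorem trio_structure {T : Finset (Finset GolayPt)} (hT : T ∈ trios) :
    (∀ e : Equiv.Perm ↥T, ∃ g ∈ MulAction.stabilizer M24 T, ∀ o : ↥T, (g : Equiv.Perm GolayPt) • (o : Finset GolayPt) = ((e o : ↥T) : Finset GolayPt)) ∧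
    ∃ (N : Subgroup ↥(MulAction.stabilizer M24 T)) (_ : N.Normal), Nat.card N = 64 ∧ (∀ x ∈ N, x * x = 1) ∧
      Nonempty (↥(MulAction.stabilizer M24 T) ⧸ N ≃* GL (Fin 3) (ZMod 2) × Equiv.Perm (Fin 3)) := by
  obtain ⟨g, rfl⟩ := trios_trans hT
  refine ⟨fun e => ?_, exists_quot_smul g _ trio_normal0⟩
  obtain ⟨x, hx⟩ := famRes_surj_smul g famRes_trS0_surj e
  refine ⟨x.1, x.2, fun t => ?_⟩
  have := congrArg (fun f : Equiv.Perm ↥(g • trS 0) => ((f t : ↥(g • trS 0)) : Finset GolayPt)) hx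
  exact this

end Cfsg.Agent.Lib.M24
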