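import Cfsg.Agent.Lib.M24.Tables
import Cfsg.Agent.Lib.Golay.Dodecad
import Cfsg.Agent.Lib.Golay.Span

/-!
# Invariant subspaces: the words of the code
-/

set_option autoImplicit false

namespace Cfsg.Agent.Lib.M24

open Cfsg Cfsg.Agent.Lib.Compute Cfsg.Agent.Lib.Golay
open scoped Pointwise

/-- The all-ones word. -/
abbrev allOne : GolayPt → ZMod 2 := fun _ => 1

theorem allOne_eq : allOne = wordOf 16777215 := one_eq

theorem allOne_mem : allOne ∈ golayCode := by
  rw [allOne_eq]
  have h : word (16777215 % 4096) = 16777215 := by decide +kernel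
  rw [← h]
  exact word_mem _

theorem permWord_allOne (σ : Equiv.Perm GolayPt) : permWord σ allOne = allOne := rfl

theorem add_self_word (w : GolayPt → ZMod 2) : w + w = 0 := by
  funext a
  exact CharTwo.add_self_eq_zero (w a)

/-- An invariant subspace. -/
abbrev IsInvSub (W : Submodule (ZMod 2) (GolayPt → ZMod 2)) : Prop :=
  ∀ σ ∈ M24, ∀ w ∈ W, (fun p => w (σ.symm p)) ∈ W

variable {W : Submodule (ZMod 2) (GolayPt → ZMod 2)}

theorem mem_of_support_image (hW : IsInvSub W) {v v' : GolayPt → ZMod 2} {g : Equiv.Perm GolayPt} (hg : g ∈ M24)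
    (hv : v ∈ W) (h : g • support₂ v = support₂ v') : v' ∈ W := by
  have h1 : support₂ (permWord g v) = support₂ v' := by
    rw [support_permWord, h]
  rw [← support_inj h1]
  exact hW g hg v hv

/-- Every octad word is in an invariant subspace having one. -/
theorem all_octads (hW : IsInvSub W) {v : GolayPt → ZMod 2} (hv : v ∈ W) (hs : support₂ v ∈ octads) {v' : GolayPt → ZMod 2}
    (hs' : support₂ v' ∈ octads) : v' ∈ W := by
  obtain ⟨g, hg⟩ := octads_transitive hs hs'
  exact mem_of_support_image hW g.2 hv hg

theorem all_dodecads (hW : IsInvSub W) {v : GolayPt → ZMod 2} (hv : v ∈ W) (hs : support₂ v ∈ dodecads) {v' : GolayPt → ZMod 2}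
    (hs' : support₂ v' ∈ dodecads) : v' ∈ W := by
  obtain ⟨g, hg⟩ := dodecads_transitive hs hs'
  exact mem_of_support_image hW g.2 hv hg

theorem support_mem_octads {v : GolayPt → ZMod 2} (hv : v ∈ golayCode) (h : hammingNorm v = 8) : support₂ v ∈ octads :=
  ⟨⟨v, hv, rfl⟩, h⟩

theorem support_mem_dodecads {v : GolayPt → ZMod 2} (hv : v ∈ golayCode) (h : hammingNorm v = 12) : support₂ v ∈ dodecads :=
  ⟨⟨v, hv, rfl⟩, h⟩

/-- An invariant subspace containing an octad word contains the code. -/
theorem code_le_of_octad (hW : IsInvSub W) {v : GolayPt → ZMod 2} (hv : v ∈ W) (hs : support₂ v ∈ octads) :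
    golayCode ≤ W := by
  intro w hw
  obtain ⟨k, _, rfl⟩ := exists_word_of_mem hw
  apply spanWord_mem_sub W basis
  intro g hg
  have h1 := List.all_eq_true.1 basis_octads g hg
  simp only [Bool.and_eq_true] at h1
  refine all_octads hW hv hs ?_
  refine support_mem_octads (mem_of_inCode h1.1) ?_
  rw [hammingNorm_wordOf]
  exact Nat.eq_of_beq_eq_true h1.2

theorem wordOf_mem_of_inCode {m : ℕ} (h : inCode m = true) : wordOf m ∈ golayCode := mem_of_inCode h

theorem dodecad_pair : inCode 28637 = true ∧ inCode 57274 = true ∧ Enc.popAux 28637 24 = 12 ∧ Enc.popAux 57274 24 = 12 ∧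
    inCode 45159 = true ∧ Enc.popAux 45159 24 = 8 ∧ (28637 ^^^ 57274) = 45159 := by
  decide +kernel

theorem octad_pair' : inCode 5279 = true ∧ inCode 10558 = true ∧ Enc.popAux 5279 24 = 8 ∧ Enc.popAux 10558 24 = 8 ∧
    inCode 15777 = true ∧ Enc.popAux 15777 24 = 8 ∧ (5279 ^^^ 10558) = 15777 := by
  decide +kernel

/-- An invariant subspace containing a word of the code different from `0` and `𝟙` contains the code. -/
theorem code_le_of_mem (hW : IsInvSub W) {c : GolayPt → ZMod 2} (hcW : c ∈ W) (hc : c ∈ golayCode) (h0 : c ≠ 0)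
    (h1 : c ≠ allOne) : golayCode ≤ W := by
  rcases weight_cases hc with h | h | h | h | h
  · exact absurd (hammingNorm_eq_zero.1 h) h0
  · exact code_le_of_octad hW hcW (support_mem_octads hc h)
  · obtain ⟨a1, a2, a3, a4, a5, a6, a7⟩ := dodecad_pair
    have hd1 : wordOf 28637 ∈ W := all_dodecads hW hcW (support_mem_dodecads hc h)
      (support_mem_dodecads (mem_of_inCode a1) (by rw [hammingNorm_wordOf]; exact a3))
    have hd2 : wordOf 57274 ∈ W := all_dodecads hW hcW (support_mem_dodecads hc h)
      (support_mem_dodecads (mem_of_inCode a2) (by rw [hammingNorm_wordOf]; exact a4))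
    have hsum : wordOf 45159 ∈ W := by
      rw [← a7, wordOf_xor]
      exact add_mem hd1 hd2
    exact code_le_of_octad hW hsum (support_mem_octads (mem_of_inCode a5) (by rw [hammingNorm_wordOf]; exact a6))
  · -- weight 16: go through the complements
    obtain ⟨a1, a2, a3, a4, a5, a6, a7⟩ := octad_pair'
    have hc' : c + allOne ∈ golayCode := add_mem hc allOne_mem
    have hs : support₂ (c + allOne) = (support₂ c)ᶜ := by
      ext a
      rw [mem_support₂, Finset.mem_compl, mem_support₂]
      have key : ∀ x : ZMod 2, x + 1 ≠ 0 ↔ ¬ x ≠ 0 := by decide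
      exact key (c a)
    have hcard : hammingNorm (c + allOne) = 8 := by
      rw [hammingNorm_eq, hs, Finset.card_compl]
      have : (support₂ c).card = 16 := h
      rw [this]
      rfl
    have hoct := support_mem_octads hc' hcard
    have hall : ∀ {m : ℕ}, inCode m = true → Enc.popAux m 24 = 8 → wordOf m + allOne ∈ W := by
      intro m hm hp
      have hm' : support₂ (wordOf m) ∈ octads :=
        support_mem_octads (mem_of_inCode hm) (by rw [hammingNorm_wordOf]; exact hp)
      obtain ⟨g, hg⟩ := octads_transitive hoct hm'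
      have h2 : permWord g.1 (c + allOne) = wordOf m := by
        apply support_inj
        rw [support_permWord]
        exact hg
      have h3 : permWord g.1 c = wordOf m + allOne := by
        have h4 : permWord g.1 (c + allOne) = permWord g.1 c + allOne := rfl
        rw [← h2, h4, add_assoc, add_self_word, add_zero]
      rw [← h3]
      exact hW g.1 g.2 c hcW
    have hsum : wordOf 15777 ∈ W := by
      have e : wordOf 15777 = (wordOf 5279 + allOne) + (wordOf 10558 + allOne) := by
        rw [← a7, wordOf_xor, add_add_add_comm, add_self_word, add_zero]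
      rw [e]
      exact add_mem (hall a1 a3) (hall a2 a4)
    exact code_le_of_octad hW hsum (support_mem_octads (mem_of_inCode a5) (by rw [hammingNorm_wordOf]; exact a6))
  · exfalso
    apply h1
    funext a
    have h2 : support₂ c = Finset.univ := by
      apply Finset.eq_univ_of_card
      exact h.trans (by simp)
    have h3 : a ∈ support₂ c := by rw [h2]; exact Finset.mem_univ a
    rw [mem_support₂] at h3
    have key : ∀ x : ZMod 2, x ≠ 0 → x = 1 := by decide
    exact key _ h3

theorem mem_span_allOne {x : GolayPt → ZMod 2} : x ∈ Submodule.span (ZMod 2) {allOne} ↔ x = 0 ∨ x = allOne := by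
  rw [Submodule.mem_span_singleton]
  constructor
  · rintro ⟨a, rfl⟩
    have key : ∀ a : ZMod 2, a = 0 ∨ a = 1 := by decide
    rcases key a with rfl | rfl
    · left
      simp
    · right
      simp
  · rintro (rfl | rfl)
    · exact ⟨0, by simp⟩
    · exact ⟨1, by simp⟩

end Cfsg.Agent.Lib.M24
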